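import Cfsg.Agent.Lib.HallSym.C3

/-!
# Extending a Hall subgroup of the alternating group to one of the symmetric group
-/

set_option autoImplicit false
set_option linter.unusedSectionVars false

open Equiv Equiv.Perm MulAction
open Cfsg.Agent.Lib.HallSym.Basic Cfsg.Agent.Lib.HallSym.Class Cfsg.Agent.Lib.HallSym.JordanLite
open Cfsg.Agent.Lib.HallSym.Odd Cfsg.Agent.Lib.HallSym.Three Cfsg.Agent.Lib.HallSym.C3

namespace Cfsg.Agent.Lib.HallSym.AltExt

variable {α : Type*} [Fintype α] [DecidableEq α]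

/-- The order of the group of class-preserving permutations for the fibres of a map. -/
theorem card_classPres_ker {ι : Type*} [Fintype ι] [DecidableEq ι] (f : α → ι) :
    Nat.card (classPres (Setoid.ker f)) = ∏ i, (Fintype.card {a // f a = i}).factorial := by
  classical
  rw [← DomMulAct.stabilizer_card f, ← Nat.card_eq_fintype_card]
  apply Nat.card_congr
  refine Equiv.subtypeEquivRight ?_
  intro g
  constructor
  · intro h
    funext x
    exact h x
  · intro h x
    exact congrFun h x

/-- A prime dividing the order of the class-preserving group is at most the size of some class. -/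
theorem prime_le_of_dvd_card_classPres (s : Setoid α) {r : ℕ} (hr : r.Prime)
    (h : r ∣ Nat.card (classPres s)) : ∃ a, r ≤ (classF s a).card := by
  classical
  have hker : Setoid.ker (Quotient.mk s) = s := Setoid.ker_mk_eq s
  rw [← hker, card_classPres_ker] at h
  obtain ⟨i, -, hi⟩ := (Prime.dvd_finsetProd_iff (Nat.Prime.prime hr) _).1 h
  have hle := (Nat.Prime.dvd_factorial hr).1 hi
  induction i using Quotient.inductionOn with
  | h a =>
    refine ⟨a, hle.trans (le_of_eq ?_)⟩
    rw [Fintype.card_subtype]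
    congr 1
    ext y
    simp only [Finset.mem_filter, Finset.mem_univ, true_and, mem_classF]
    exact Quotient.eq

/-- `M` normalizes the class-preserving group of an `M`-invariant setoid. -/
theorem le_normalizer_classPres {M : Subgroup (Perm α)} {s : Setoid α}
    (hs : ∀ g ∈ M, ∀ x y, s.r x y → s.r (g x) (g y)) :
    M ≤ Subgroup.normalizer (classPres s : Set (Perm α)) := by
  intro g hg
  rw [Subgroup.mem_normalizer_iff]
  intro h
  constructor
  · intro hh x
    have := hs g hg _ _ (hh (g⁻¹ x))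
    simpa [Perm.mul_apply] using this
  · intro hh x
    have := hs g⁻¹ (M.inv_mem hg) _ _ (hh (g x))
    simpa [Perm.mul_apply] using this

/-- Primes dividing the order of a join with a normalizing subgroup. -/
theorem prime_of_dvd_card_sup {M K : Subgroup (Perm α)}
    (hM : M ≤ Subgroup.normalizer (K : Set (Perm α))) {r : ℕ} (hr : r.Prime)
    (h : r ∣ Nat.card (K ⊔ M : Subgroup (Perm α))) : r ∣ Nat.card K ∨ r ∣ Nat.card M :=
  (Nat.Prime.dvd_mul hr).1 (h.trans (Cfsg.Agent.Lib.Signal.Basic.card_sup_dvd_of_le_normalizer hM))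

variable {M : Subgroup (Perm α)}

/-- Even permutations supported in a class of the three-cycle relation lie in `M`. -/
theorem mem_of_even_of_support {z : Perm α} {a : α} (hz : Perm.sign z = 1)
    (hsupp : z.support ⊆ classF (e3 M) a) : z ∈ M := by
  classical
  set Λ := classF (e3 M) a with hΛ
  have h2 : ∀ x, z x ≠ x → x ∈ Λ := fun x hx => hsupp (Perm.mem_support.2 hx)
  have h1 : ∀ x, z x ∈ Λ ↔ x ∈ Λ := by
    intro x
    constructor
    · intro h
      by_contra hx
      have : z x = x := by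
        by_contra hne
        exact hx (h2 x hne)
      rw [this] at h
      exact hx h
    · intro h
      by_cases hzx : z x = x
      · rwa [hzx]
      · exact hsupp (Perm.apply_mem_support.2 (Perm.mem_support.2 hzx))
  let z' : Perm {x // x ∈ Λ} := z.subtypePerm h1
  have hz' : z' ∈ alternatingGroup {x // x ∈ Λ} := by
    rw [Perm.mem_alternatingGroup]
    show Perm.sign (z.subtypePerm h1) = 1
    have h3 := Perm.sign_subtypePerm z h1 h2
    rw [hz] at h3
    convert h3
  have hall : ∀ σ ∈ alternatingGroup {x // x ∈ Λ}, Perm.ofSubtype σ ∈ M := by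
    intro σ hσ
    rw [← Perm.closure_three_cycles_eq_alternating] at hσ
    induction hσ using Subgroup.closure_induction with
    | mem σ hσ =>
      have hσ3 : σ.IsThreeCycle := hσ
      have hσ' : (Perm.ofSubtype σ).IsThreeCycle := by
        rw [Perm.IsThreeCycle, Perm.cycleType_ofSubtype]
        exact hσ3
      -- a moved point
      have hne : σ ≠ 1 := hσ3.isCycle.ne_one
      obtain ⟨x, hx⟩ : ∃ x, σ x ≠ x := by
        by_contra hcon
        push Not at hcon
        exact hne (Equiv.ext hcon)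
      have hxmoved : Perm.ofSubtype σ x.1 ≠ x.1 := by
        rw [Perm.ofSubtype_apply_coe]
        exact fun h => hx (Subtype.ext h)
      obtain ⟨-, h3, h4, h5⟩ := IsThreeCycle_eq_c3 hσ' hxmoved
      rw [h5]
      have hy : Perm.ofSubtype σ x.1 = (σ x).1 := Perm.ofSubtype_apply_coe σ x
      have hz₁ : Perm.ofSubtype σ (Perm.ofSubtype σ x.1) = (σ (σ x)).1 := by
        rw [hy]; exact Perm.ofSubtype_apply_coe σ (σ x)
      apply c3_mem_of_related hxmoved.symm h3.symm h4.symm
      · have := (e3 M).iseqv.trans (mem_classF.1 x.2) ((e3 M).iseqv.symm (mem_classF.1 (σ x).2))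
        rwa [← hy] at this
      · have := (e3 M).iseqv.trans (mem_classF.1 (σ x).2) ((e3 M).iseqv.symm (mem_classF.1 (σ (σ x)).2))
        rwa [← hy, ← hz₁] at this
    | one => simpa using M.one_mem
    | mul a b _ _ ha hb =>
      rw [map_mul]
      exact M.mul_mem ha hb
    | inv a _ ha =>
      rw [map_inv]
      exact M.inv_mem ha
  have hfin := hall z' hz'
  rwa [show Perm.ofSubtype z' = z from Perm.ofSubtype_subtypePerm h1 h2] at hfin

/-- Primes dividing the order of the class-preserving group of the three-cycle relation lie in `π`. -/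
theorem classPres_e3_pi {π : Set ℕ} (hπ : ∀ p : ℕ, p.Prime → p ∣ Nat.card M → p ∈ π) (h2 : 2 ∈ π)
    {r : ℕ} (hr : r.Prime) (h : r ∣ Nat.card (classPres (e3 M))) : r ∈ π := by
  obtain ⟨a, ha⟩ := prime_le_of_dvd_card_classPres (e3 M) hr h
  by_cases hr2 : r = 2
  · rw [hr2]; exact h2
  obtain ⟨z, hz, hzk, hzs⟩ := exists_cycle_support (classF (e3 M) a) hr.two_le ha
  have hsign : Perm.sign z = 1 := by
    rw [hz.sign, hzk, (hr.odd_of_ne_two hr2).neg_one_pow]
    simp
  have hzM := mem_of_even_of_support hsign hzs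
  apply hπ r hr
  have := orderOf_dvd_card_of_mem hzM
  rwa [hz.orderOf, hzk] at this

/-- With a three-cycle in `M`, we get the extension. -/
theorem exists_ext_of_c3 {π : Set ℕ} (hπ : ∀ p : ℕ, p.Prime → p ∣ Nat.card M → p ∈ π) (h2 : 2 ∈ π)
    {x y z : α} (hxy : x ≠ y) (hxz : x ≠ z) (hyz : y ≠ z) (hc : c3 x y z ∈ M) :
    ∃ M₀ : Subgroup (Perm α), M ≤ M₀ ∧ (∀ p : ℕ, p.Prime → p ∣ Nat.card M₀ → p ∈ π) ∧
      ∃ g ∈ M₀, Perm.sign g = -1 := by
  refine ⟨classPres (e3 M) ⊔ M, le_sup_right, ?_, swap x y, ?_, Perm.sign_swap hxy⟩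
  · intro p hp hd
    have hnorm : M ≤ Subgroup.normalizer (classPres (e3 M) : Set (Perm α)) :=
      le_normalizer_classPres (fun g hg _ _ h => e3_invariant hg h)
    rcases prime_of_dvd_card_sup hnorm hp hd with h | h
    · exact classPres_e3_pi hπ h2 hp h
    · exact hπ p hp h
  · apply Subgroup.mem_sup_left
    intro t
    have hr : (e3 M).r x y := Or.inr ⟨z, hxy, hxz, hyz, hc⟩
    by_cases h1 : t = x
    · rw [h1, swap_apply_left]
      exact (e3 M).iseqv.symm hr
    by_cases h2 : t = y
    · rw [h2, swap_apply_right]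
      exact hr
    · rw [swap_apply_of_ne_of_ne h1 h2]

/-- The extension of a Hall subgroup of the alternating group. -/
theorem exists_ext {π : Set ℕ} (hMA : M ≤ alternatingGroup α)
    (hπ : ∀ p : ℕ, p.Prime → p ∣ Nat.card M → p ∈ π)
    (hi : ∀ p : ℕ, p.Prime → p ∈ π → ¬ p ∣ M.relIndex (alternatingGroup α))
    (h2 : 2 ∈ π) (hn : 2 ≤ Fintype.card α) :
    ∃ M₀ : Subgroup (Perm α), M ≤ M₀ ∧ (∀ p : ℕ, p.Prime → p ∣ Nat.card M₀ → p ∈ π) ∧
      ∃ g ∈ M₀, Perm.sign g = -1 := by
  classical
  by_cases hodd : ∃ q : ℕ, q.Prime ∧ q ≠ 2 ∧ q ∈ π ∧ q ≤ Fintype.card α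
  · obtain ⟨q, hq, hq2, hqπ, hqn⟩ := hodd
    have h3 : 3 ∈ π := by
      by_cases hq3 : q = 3
      · rwa [hq3] at hqπ
      · have hq5 : 5 ≤ q := by
          have hq4 : q ≠ 4 := fun h => by rw [h] at hq; exact absurd hq (by norm_num)
          have := hq.two_le
          omega
        exact three_mem hMA hπ hi h2 hq hq5 hqπ hqn
    have h3n : 3 ≤ Fintype.card α := by
      have := hq.two_le
      omega
    -- a three-cycle in `M`
    obtain ⟨z, hz, hzk, -⟩ := exists_cycle_support (Finset.univ : Finset α) (by norm_num : 2 ≤ 3)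
      (by simpa using h3n)
    have hzA : z ∈ alternatingGroup α := by
      rw [Equiv.Perm.mem_alternatingGroup, hz.sign, hzk]
      rfl
    have h3F : Fact (Nat.Prime 3) := ⟨Nat.prime_three⟩
    have hpow : z ^ 3 ^ 1 = 1 := by
      rw [pow_one, ← hzk]; exact IsCycle_pow_card hz
    obtain ⟨w, -, hw⟩ := exists_conj_mem_of_pow_eq_one hzA hpow (hi 3 Nat.prime_three h3)
    have hzk3 : (w⁻¹ * z * w).IsThreeCycle := by
      have hz3 : z.cycleType = {3} := by
        rw [hz.cycleType, hzk]
      show (w⁻¹ * z * w).cycleType = {3}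
      rw [← hz3]
      have : w⁻¹ * z * w = w⁻¹ * z * (w⁻¹)⁻¹ := by simp
      rw [this, Perm.cycleType_conj]
    have hne := hzk3.isCycle.ne_one
    obtain ⟨a, ha⟩ : ∃ a, (w⁻¹ * z * w) a ≠ a := by
      by_contra hcon
      push Not at hcon
      exact hne (Equiv.ext hcon)
    obtain ⟨-, h3', h4, h5⟩ := IsThreeCycle_eq_c3 hzk3 ha
    rw [h5] at hw
    exact exists_ext_of_c3 hπ h2 ha.symm h3'.symm h4.symm hw
  · push Not at hodd
    -- `M` is a 2-group: extend to a Sylow 2-subgroup
    have h2F : Fact (Nat.Prime 2) := ⟨Nat.prime_two⟩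
    have hM2 : IsPGroup 2 M := by
      apply IsPGroup.of_card (n := (Nat.primeFactorsList (Nat.card M)).length)
      apply Nat.eq_prime_pow_of_unique_prime_dvd (Nat.card_pos.ne')
      intro d hd hdvd
      by_contra hne
      have h1 := hodd d hd hne (hπ d hd hdvd)
      have h3 : d ∣ (Fintype.card α).factorial := by
        have h4 := hdvd.trans (Subgroup.card_subgroup_dvd_card M)
        rwa [Nat.card_eq_fintype_card, Fintype.card_perm] at h4
      have h5 := (Nat.Prime.dvd_factorial hd).1 h3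
      omega
    obtain ⟨Q, hQ⟩ := hM2.exists_le_sylow
    refine ⟨Q, hQ, ?_, ?_⟩
    · intro p hp hd
      obtain ⟨k, hk⟩ := IsPGroup.iff_card.1 Q.isPGroup'
      rw [hk] at hd
      have := (Nat.prime_dvd_prime_iff_eq hp Nat.prime_two).1 (hp.dvd_of_dvd_pow hd)
      rw [this]; exact h2
    · obtain ⟨a, b, hab⟩ := Fintype.exists_pair_of_one_lt_card (by omega : 1 < Fintype.card α)
      have hpow : (swap a b) ^ 2 ^ 1 = 1 := by
        rw [pow_one, pow_two, swap_mul_self]
      have hnd : ¬ 2 ∣ (Q : Subgroup (Perm α)).relIndex ⊤ := by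
        rw [Subgroup.relIndex_top_right]
        exact Q.not_dvd_index
      obtain ⟨w, -, hw⟩ := exists_conj_mem_of_pow_eq_one (W := ⊤) (Subgroup.mem_top (swap a b)) hpow hnd
      refine ⟨_, hw, ?_⟩
      rw [map_mul, map_mul, Perm.sign_swap hab, map_inv]
      simp [mul_comm]

/-- Consequences of the extension: `M₀ ⊓ A = M` and `M₀` has index prime to `π`. -/
theorem hall_of_ext {π : Set ℕ} (hMA : M ≤ alternatingGroup α)
    (hπ : ∀ p : ℕ, p.Prime → p ∣ Nat.card M → p ∈ π)
    (hi : ∀ p : ℕ, p.Prime → p ∈ π → ¬ p ∣ M.relIndex (alternatingGroup α))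
    {M₀ : Subgroup (Perm α)} (hMM₀ : M ≤ M₀) (hM₀ : ∀ p : ℕ, p.Prime → p ∣ Nat.card M₀ → p ∈ π)
    {g : Perm α} (hg : g ∈ M₀) (hgs : Perm.sign g = -1) :
    M₀ ⊓ alternatingGroup α = M ∧ ∀ p : ℕ, p.Prime → p ∈ π → ¬ p ∣ M₀.index := by
  classical
  set A := alternatingGroup α with hA
  have hle : M ≤ M₀ ⊓ A := le_inf hMM₀ hMA
  have hrel1 : M.relIndex (M₀ ⊓ A) = 1 := by
    by_contra hne
    obtain ⟨p, hp, hpd⟩ := Nat.exists_prime_and_dvd hne
    have h1 : p ∣ M.relIndex A :=
      hpd.trans ⟨(M₀ ⊓ A).relIndex A, (Subgroup.relIndex_mul_relIndex _ _ _ hle inf_le_right).symm⟩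
    have h2 : M.relIndex (M₀ ⊓ A) ∣ Nat.card M₀ := by
      have h3 : M.relIndex (M₀ ⊓ A) ∣ Nat.card (M₀ ⊓ A : Subgroup (Perm α)) :=
        ⟨Nat.card (M.subgroupOf (M₀ ⊓ A)), by
          rw [Subgroup.relIndex, mul_comm]
          exact (Subgroup.card_mul_index (M.subgroupOf (M₀ ⊓ A))).symm⟩
      exact h3.trans (Subgroup.card_dvd_of_le inf_le_left)
    exact hi p hp (hM₀ p hp (hpd.trans h2)) h1
  have hEq : M₀ ⊓ A = M := le_antisymm (Subgroup.relIndex_eq_one.1 hrel1) hle
  refine ⟨hEq, ?_⟩
  -- orders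
  have hgnotA : g ∉ A := by
    intro h
    rw [hA, Perm.mem_alternatingGroup, hgs] at h
    exact absurd h (by decide)
  have hn : Nontrivial α := by
    by_contra hnt
    rw [not_nontrivial_iff_subsingleton] at hnt
    have : g = 1 := Subsingleton.elim _ _
    rw [this, map_one] at hgs
    exact absurd hgs (by decide)
  have hcardA : 2 * Nat.card A = Nat.card (Perm α) := by
    rw [Nat.card_eq_fintype_card, Nat.card_eq_fintype_card]
    exact two_mul_card_alternatingGroup
  -- `A` has relative index 2 in `M₀`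
  have hrel2 : A.relIndex M₀ = 2 := by
    have h1 : A.relIndex M₀ ∣ 2 := by
      have h2 : A.index = 2 := alternatingGroup.index_eq_two
      rw [← h2]
      exact Subgroup.relIndex_dvd_index_of_normal A M₀
    have h3 : A.relIndex M₀ ≠ 1 := by
      intro h
      rw [Subgroup.relIndex_eq_one] at h
      exact hgnotA (h hg)
    rcases (Nat.dvd_prime Nat.prime_two).1 h1 with h | h
    · exact absurd h h3
    · exact h
  have hcardM₀ : Nat.card M₀ = 2 * Nat.card M := by
    have h1 := Subgroup.relIndex_mul_relIndex (⊥ : Subgroup (Perm α)) (M₀ ⊓ A) M₀ bot_le inf_le_left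
    rw [Subgroup.relIndex_bot_left, Subgroup.relIndex_bot_left, hEq] at h1
    have h2 : M.relIndex M₀ = 2 := by
      rw [← hEq, Subgroup.inf_relIndex_left, hrel2]
    rw [h2] at h1
    omega
  have h1 := Subgroup.card_mul_index M₀
  have h2 : Nat.card M * M.relIndex A = Nat.card A := by
    have := Subgroup.relIndex_mul_relIndex (⊥ : Subgroup (Perm α)) M A bot_le hMA
    rwa [Subgroup.relIndex_bot_left, Subgroup.relIndex_bot_left] at this
  have hpos : 0 < Nat.card M := Nat.card_pos
  have hidx : M₀.index = M.relIndex A := by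
    rw [hcardM₀, ← hcardA, ← h2] at h1
    have : (Nat.card M * 2) * M₀.index = (Nat.card M * 2) * M.relIndex A := by
      linarith
    exact Nat.eq_of_mul_eq_mul_left (by omega) this
  intro p hp hpπ
  rw [hidx]
  exact hi p hp hpπ

end Cfsg.Agent.Lib.HallSym.AltExt
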