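import Cfsg.Agent.Lib.HallSym.AltExt

/-!
# Hall subgroups of the alternating group are the traces of those of the symmetric group
-/

set_option autoImplicit false
set_option linter.unusedSectionVars false

open Equiv Equiv.Perm MulAction
open Cfsg.Agent.Lib.HallSym.Basic Cfsg.Agent.Lib.HallSym.Class Cfsg.Agent.Lib.HallSym.AltExt

namespace Cfsg.Agent.Lib.HallSym.AltHall

variable {α : Type*} [Fintype α] [DecidableEq α]

theorem card_map_subtype (M : Subgroup ↥(alternatingGroup α)) :
    Nat.card (M.map (alternatingGroup α).subtype) = Nat.card M :=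
  Subgroup.card_map_of_injective (Subgroup.subtype_injective _)

theorem map_subtype_subgroupOf (M : Subgroup ↥(alternatingGroup α)) :
    (M.map (alternatingGroup α).subtype).subgroupOf (alternatingGroup α) = M :=
  Subgroup.comap_map_eq_self_of_injective (Subgroup.subtype_injective _) M

theorem relIndex_map_subtype (M : Subgroup ↥(alternatingGroup α)) :
    (M.map (alternatingGroup α).subtype).relIndex (alternatingGroup α) = M.index := by
  rw [Subgroup.relIndex, map_subtype_subgroupOf]

theorem map_subtype_le (M : Subgroup ↥(alternatingGroup α)) :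
    M.map (alternatingGroup α).subtype ≤ alternatingGroup α := by
  rintro _ ⟨x, -, rfl⟩
  exact x.2

/-- The trace of a Hall subgroup of the symmetric group on the alternating group is Hall. -/
theorem subgroupOf_isPiHall {π : Set ℕ} {M₀ : Subgroup (Perm α)} (h : Cfsg.IsPiHall π M₀) :
    Cfsg.IsPiHall π (M₀.subgroupOf (alternatingGroup α)) := by
  classical
  set A := alternatingGroup α with hA
  have hcardinf : Nat.card (M₀.subgroupOf A) = Nat.card (M₀ ⊓ A : Subgroup (Perm α)) := by
    rw [← Subgroup.subgroupOf_map_subtype M₀ A]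
    exact (Subgroup.card_map_of_injective (Subgroup.subtype_injective _)).symm
  refine ⟨?_, ?_⟩
  · intro p hp hd
    rw [hcardinf] at hd
    exact h.1 p hp (hd.trans (Subgroup.card_dvd_of_le inf_le_left))
  · intro p hp hpπ hd
    apply h.2 p hp hpπ
    refine hd.trans ?_
    by_cases hn : Nontrivial α
    · -- arithmetic
      have hcardA : 2 * Nat.card A = Nat.card (Perm α) := by
        rw [Nat.card_eq_fintype_card, Nat.card_eq_fintype_card]
        exact two_mul_card_alternatingGroup
      have h1 := Subgroup.relIndex_mul_relIndex (⊥ : Subgroup (Perm α)) (M₀ ⊓ A) A bot_le inf_le_right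
      rw [Subgroup.relIndex_bot_left, Subgroup.relIndex_bot_left, Subgroup.inf_relIndex_right] at h1
      have h2 := Subgroup.relIndex_mul_relIndex (⊥ : Subgroup (Perm α)) (M₀ ⊓ A) M₀ bot_le inf_le_left
      rw [Subgroup.relIndex_bot_left, Subgroup.relIndex_bot_left, Subgroup.inf_relIndex_left] at h2
      have h3 := Subgroup.card_mul_index M₀
      have h4 : A.relIndex M₀ ∣ 2 := by
        have h5 : A.index = 2 := alternatingGroup.index_eq_two
        rw [← h5]
        exact Subgroup.relIndex_dvd_index_of_normal A M₀
      set c := Nat.card (M₀ ⊓ A : Subgroup (Perm α)) with hc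
      have hcpos : 0 < c := Nat.card_pos
      have hJ : (M₀.subgroupOf A).index = M₀.relIndex A := rfl
      rw [hJ]
      have hmain : A.relIndex M₀ * M₀.index = 2 * M₀.relIndex A := by
        have : c * (A.relIndex M₀ * M₀.index) = c * (2 * M₀.relIndex A) := by
          calc c * (A.relIndex M₀ * M₀.index) = (c * A.relIndex M₀) * M₀.index := by ring
            _ = Nat.card (Perm α) := by rw [h2, h3]
            _ = 2 * Nat.card A := hcardA.symm
            _ = 2 * (c * M₀.relIndex A) := by rw [h1]
            _ = c * (2 * M₀.relIndex A) := by ring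
        exact Nat.eq_of_mul_eq_mul_left hcpos this
      rcases (Nat.dvd_prime Nat.prime_two).1 h4 with h5 | h5
      · rw [h5, one_mul] at hmain
        rw [hmain]
        exact Dvd.intro_left 2 rfl
      · rw [h5] at hmain
        have := Nat.eq_of_mul_eq_mul_left (by norm_num : 0 < 2) hmain
        rw [this]
    · rw [not_nontrivial_iff_subsingleton] at hn
      have : (M₀.subgroupOf A).index = 1 := by
        rw [Subgroup.index_eq_one]
        exact Subsingleton.elim _ _
      rw [this]
      exact one_dvd _

/-- Lifting a Hall subgroup of the alternating group. -/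
theorem exists_lift {π : Set ℕ} {M : Subgroup ↥(alternatingGroup α)} (h : Cfsg.IsPiHall π M) :
    ∃ M₀ : Subgroup (Perm α), Cfsg.IsPiHall π M₀ ∧ M = M₀.subgroupOf (alternatingGroup α) ∧
      (2 ∈ π → Nontrivial α → ∃ g ∈ M₀, Perm.sign g = -1) := by
  classical
  set M' := M.map (alternatingGroup α).subtype with hM'
  have hcard : Nat.card M' = Nat.card M := card_map_subtype M
  have hsub : M'.subgroupOf (alternatingGroup α) = M := map_subtype_subgroupOf M
  have hrel : M'.relIndex (alternatingGroup α) = M.index := relIndex_map_subtype M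
  have hMA : M' ≤ alternatingGroup α := map_subtype_le M
  have hπ' : ∀ p : ℕ, p.Prime → p ∣ Nat.card M' → p ∈ π := by
    intro p hp hd
    rw [hcard] at hd
    exact h.1 p hp hd
  have hi' : ∀ p : ℕ, p.Prime → p ∈ π → ¬ p ∣ M'.relIndex (alternatingGroup α) := by
    intro p hp hpπ
    rw [hrel]
    exact h.2 p hp hpπ
  by_cases hn : Nontrivial α
  · by_cases h2 : 2 ∈ π
    · have hn2 : 2 ≤ Fintype.card α := Fintype.one_lt_card_iff_nontrivial.2 hn
      obtain ⟨M₀, h1, h3, g, hg, hgs⟩ := exists_ext hMA hπ' hi' h2 hn2
      obtain ⟨h4, h5⟩ := hall_of_ext hMA hπ' hi' h1 h3 hg hgs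
      refine ⟨M₀, ⟨h3, h5⟩, ?_, fun _ _ => ⟨g, hg, hgs⟩⟩
      calc M = M'.subgroupOf (alternatingGroup α) := hsub.symm
        _ = (M₀ ⊓ alternatingGroup α).subgroupOf (alternatingGroup α) := by rw [h4]
        _ = M₀.subgroupOf (alternatingGroup α) := Subgroup.inf_subgroupOf_right _ _
    · refine ⟨M', ⟨hπ', ?_⟩, hsub.symm, fun h => absurd h h2⟩
      intro p hp hpπ hd
      have h3 : M'.index = M'.relIndex (alternatingGroup α) * (alternatingGroup α).index := (Subgroup.relIndex_mul_index hMA).symm
      have h4 : (alternatingGroup α).index = 2 := alternatingGroup.index_eq_two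
      rw [h3, h4] at hd
      rcases (Nat.Prime.dvd_mul hp).1 hd with h5 | h5
      · exact hi' p hp hpπ h5
      · rw [(Nat.prime_dvd_prime_iff_eq hp Nat.prime_two).1 h5] at hpπ
        exact h2 hpπ
  · rw [not_nontrivial_iff_subsingleton] at hn
    refine ⟨⊤, ⟨?_, ?_⟩, ?_, fun _ h => absurd h (not_nontrivial_iff_subsingleton.2 hn)⟩
    · intro p hp hd
      have : Nat.card (⊤ : Subgroup (Perm α)) = 1 := by
        rw [Subgroup.card_top]; exact Nat.card_unique
      rw [this] at hd
      exact absurd (Nat.dvd_one.1 hd) hp.one_lt.ne'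
    · intro p hp _ hd
      rw [Subgroup.index_top] at hd
      exact absurd (Nat.dvd_one.1 hd) hp.one_lt.ne'
    · exact Subsingleton.elim _ _

end Cfsg.Agent.Lib.HallSym.AltHall
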