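import Mathlib
import Cfsg.Prelude.Def_HallClasses

/-!
# Hall subgroups of symmetric and alternating groups: generalities

Relative "Sylow conjugation" (a `p`-subgroup of `W` is conjugate in `W` into `M ≤ W` if `p ∤ [W:M]`),
maximality and order of Hall subgroups, existence of cycles with prescribed support.
-/

set_option autoImplicit false
set_option linter.unusedSectionVars false

open Equiv Equiv.Perm MulAction

namespace Cfsg.Agent.Lib.HallSym.Basic

section SY

variable {G : Type*} [Group G] [Finite G]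

/-- A `p`-subgroup of `W` is `W`-conjugate into `M ≤ W` if `p ∤ [W:M]`. -/
theorem exists_conj_le_of_isPGroup {p : ℕ} [hp : Fact p.Prime] {M W X : Subgroup G}
    (hXW : X ≤ W) (hX : IsPGroup p X) (hpi : ¬ p ∣ M.relIndex W) :
    ∃ w ∈ W, ∀ x ∈ X, w⁻¹ * x * w ∈ M := by
  classical
  let Y : Subgroup W := X.subgroupOf W
  let Q := W ⧸ M.subgroupOf W
  have hY : IsPGroup p Y := by
    intro g
    obtain ⟨k, hk⟩ := hX ⟨(g : W), g.2⟩
    refine ⟨k, ?_⟩
    apply Subtype.ext
    apply Subtype.ext
    have := congrArg (fun z : X => ((z : G))) hk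
    simpa using this
  have hcard := hY.card_modEq_card_fixedPoints (α := Q)
  have hQ : Nat.card Q = M.relIndex W := rfl
  have hne : (fixedPoints Y Q).Nonempty := by
    by_contra hemp
    rw [Set.not_nonempty_iff_eq_empty] at hemp
    apply hpi
    rw [← hQ]
    have h0 : Nat.card (fixedPoints Y Q) = 0 := by
      rw [hemp]; simp
    rw [h0] at hcard
    exact (Nat.modEq_zero_iff_dvd).1 hcard
  obtain ⟨q, hq⟩ := hne
  induction q using QuotientGroup.induction_on with
  | H w =>
    refine ⟨w, w.2, fun x hx => ?_⟩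
    have h1 := hq ⟨⟨x, hXW hx⟩, hx⟩
    have h2 : ((⟨x, hXW hx⟩ : W) * w : W) = (⟨x, hXW hx⟩ : W) * w := rfl
    have h3 : (QuotientGroup.mk ((⟨x, hXW hx⟩ : W) * w) : Q) = QuotientGroup.mk w := h1
    rw [QuotientGroup.eq] at h3
    have h4 : ((((⟨x, hXW hx⟩ : W) * w)⁻¹ * w : W) : G) ∈ M := h3
    have h5 : ((((⟨x, hXW hx⟩ : W) * w)⁻¹ * w : W) : G) = (w⁻¹ * ⟨x, hXW hx⟩ * w : W)⁻¹ := by
      simp [mul_assoc]
    have h6 : (w⁻¹ * ⟨x, hXW hx⟩ * w : W)⁻¹ = ((w : G)⁻¹ * x * w)⁻¹ := by
      simp [mul_assoc]
    rw [h5, h6] at h4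
    simpa using M.inv_mem h4

/-- Element form: an element `z ∈ W` with `z ^ p ^ k = 1` is `W`-conjugate into `M`. -/
theorem exists_conj_mem_of_pow_eq_one {p : ℕ} [hp : Fact p.Prime] {M W : Subgroup G} {z : G} {k : ℕ}
    (hzW : z ∈ W) (hz : z ^ p ^ k = 1) (hpi : ¬ p ∣ M.relIndex W) :
    ∃ w ∈ W, w⁻¹ * z * w ∈ M := by
  have hle : Subgroup.zpowers z ≤ W := by
    rw [Subgroup.zpowers_le]; exact hzW
  have hP : IsPGroup p (Subgroup.zpowers z) := by
    intro g
    obtain ⟨i, hi⟩ := g.2
    refine ⟨k, ?_⟩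
    apply Subtype.ext
    simp only [Subgroup.coe_pow, Subgroup.coe_one]
    rw [← hi, ← zpow_natCast, ← zpow_mul, mul_comm, zpow_mul, zpow_natCast, hz, one_zpow]
  obtain ⟨w, hw, h⟩ := exists_conj_le_of_isPGroup hle hP hpi
  exact ⟨w, hw, h z (Subgroup.mem_zpowers z)⟩

/-- The relative index divides the index. -/
theorem relIndex_dvd_index_of_le {M W : Subgroup G} (h : M ≤ W) : M.relIndex W ∣ M.index :=
  ⟨W.index, (Subgroup.relIndex_mul_index h).symm⟩

/-- Maximality of a subgroup with index prime to `π` among `π`-subgroups. -/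
theorem le_of_le_of_isPi {π : Set ℕ} {M W : Subgroup G}
    (hi : ∀ p : ℕ, p.Prime → p ∈ π → ¬ p ∣ M.index) (hMW : M ≤ W)
    (hW : ∀ p : ℕ, p.Prime → p ∣ Nat.card W → p ∈ π) : W ≤ M := by
  have h1 : M.relIndex W = 1 := by
    by_contra hne
    obtain ⟨p, hp, hpd⟩ := Nat.exists_prime_and_dvd hne
    have h2 : M.relIndex W ∣ Nat.card W := by
      exact ⟨Nat.card (M.subgroupOf W), by
        rw [Subgroup.relIndex, mul_comm]
        exact (Subgroup.card_mul_index (M.subgroupOf W)).symm⟩
    exact hi p hp (hW p hp (hpd.trans h2)) (hpd.trans (relIndex_dvd_index_of_le hMW))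
  exact Subgroup.relIndex_eq_one.1 h1

/-- Hall subgroups of the same group have the same order. -/
theorem card_eq_of_isPiHall {π : Set ℕ} {M M' : Subgroup G}
    (h : Cfsg.IsPiHall π M) (h' : Cfsg.IsPiHall π M') : Nat.card M = Nat.card M' := by
  have key : ∀ {A B : Subgroup G}, Cfsg.IsPiHall π A → Cfsg.IsPiHall π B → Nat.card A ∣ Nat.card B := by
    intro A B hA hB
    have hcop : Nat.Coprime (Nat.card A) B.index := by
      apply Nat.Coprime.symm
      apply Nat.coprime_of_dvd
      intro p hp h1 h2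
      exact hB.2 p hp (hA.1 p hp h2) h1
    have h1 : Nat.card A ∣ Nat.card B * B.index := by
      rw [Subgroup.card_mul_index]
      exact Subgroup.card_subgroup_dvd_card A
    exact hcop.dvd_of_dvd_mul_right h1
  exact Nat.dvd_antisymm (key h h') (key h' h)

/-- A prime dividing the index of `M` divides the order of the group. -/
theorem dvd_card_of_dvd_index {M : Subgroup G} {p : ℕ} (h : p ∣ M.index) : p ∣ Nat.card G := by
  have := Subgroup.card_mul_index M
  exact h.trans ⟨Nat.card M, by rw [← this, mul_comm]⟩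

end SY

section Cycles

variable {α : Type*} [Fintype α] [DecidableEq α]

/-- Existence of a `k`-cycle with support inside a given finite set. -/
theorem exists_cycle_support (Y : Finset α) {k : ℕ} (h2 : 2 ≤ k) (hk : k ≤ Y.card) :
    ∃ z : Perm α, z.IsCycle ∧ z.support.card = k ∧ z.support ⊆ Y := by
  obtain ⟨T, hTY, hTk⟩ := Finset.exists_subset_card_eq hk
  have hnd : T.toList.Nodup := Finset.nodup_toList T
  have hlen : 2 ≤ T.toList.length := by simpa [hTk] using h2
  refine ⟨T.toList.formPerm, List.isCycle_formPerm hnd hlen, ?_, ?_⟩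
  · rw [List.support_formPerm_of_nodup _ hnd (by
      intro x hx
      have := congrArg List.length hx
      simp only [List.length_singleton] at this
      omega)]
    simp [hTk]
  · rw [List.support_formPerm_of_nodup _ hnd (by
      intro x hx
      have := congrArg List.length hx
      simp only [List.length_singleton] at this
      omega)]
    intro x hx
    simp only [List.mem_toFinset, Finset.mem_toList] at hx
    exact hTY hx

/-- A cycle with support card `k`: all moved points are powers applied to a moved point. -/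
theorem IsCycle_pow_card {z : Perm α} (hz : z.IsCycle) : z ^ z.support.card = 1 := by
  rw [← hz.orderOf]; exact pow_orderOf_eq_one z

end Cycles

end Cfsg.Agent.Lib.HallSym.Basic
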