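import Cfsg.Agent.Lib.HallSym.Three

/-!
# Three-cycles, and the equivalence relation they define on the points
-/

set_option autoImplicit false
set_option linter.unusedSectionVars false

open Equiv Equiv.Perm MulAction
open Cfsg.Agent.Lib.HallSym.Basic Cfsg.Agent.Lib.HallSym.Class

namespace Cfsg.Agent.Lib.HallSym.C3

variable {α : Type*} [Fintype α] [DecidableEq α]

/-- The three-cycle `x ↦ y ↦ z ↦ x`. -/
def c3 (x y z : α) : Perm α := swap x y * swap y z

section apply
variable {x y z : α} (hxy : x ≠ y) (hxz : x ≠ z) (hyz : y ≠ z)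
include hxy hxz hyz

theorem c3_left : c3 x y z x = y := by
  simp [c3, Perm.mul_apply, swap_apply_of_ne_of_ne hxy hxz]

theorem c3_mid : c3 x y z y = z := by
  simp [c3, Perm.mul_apply, swap_apply_of_ne_of_ne hxz.symm hyz.symm]

theorem c3_right : c3 x y z z = x := by
  simp [c3, Perm.mul_apply]

end apply

theorem c3_other {x y z t : α} (h1 : t ≠ x) (h2 : t ≠ y) (h3 : t ≠ z) : c3 x y z t = t := by
  simp [c3, Perm.mul_apply, swap_apply_of_ne_of_ne h2 h3, swap_apply_of_ne_of_ne h1 h2]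

/-- Extensionality for three-cycles. -/
theorem eq_c3 {σ : Perm α} {x y z : α} (hxy : x ≠ y) (hxz : x ≠ z) (hyz : y ≠ z)
    (h1 : σ x = y) (h2 : σ y = z) (h3 : σ z = x) (h4 : ∀ t, t ≠ x → t ≠ y → t ≠ z → σ t = t) :
    σ = c3 x y z := by
  ext t
  by_cases t1 : t = x
  · rw [t1, h1, c3_left hxy hxz hyz]
  by_cases t2 : t = y
  · rw [t2, h2, c3_mid hxy hxz hyz]
  by_cases t3 : t = z
  · rw [t3, h3, c3_right hxy hxz hyz]
  rw [h4 t t1 t2 t3, c3_other t1 t2 t3]

theorem c3_conj (g : Perm α) (x y z : α) : g * c3 x y z * g⁻¹ = c3 (g x) (g y) (g z) := by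
  simp only [c3, swap_apply_apply]
  group

theorem c3_cyc {x y z : α} (hxy : x ≠ y) (hxz : x ≠ z) (hyz : y ≠ z) : c3 x y z = c3 y z x := by
  apply eq_c3 hyz hxy.symm hxz.symm
  · exact c3_mid hxy hxz hyz
  · exact c3_right hxy hxz hyz
  · exact c3_left hxy hxz hyz
  · intro t t1 t2 t3
    exact c3_other t3 t1 t2

theorem c3_inv {x y z : α} (hxy : x ≠ y) (hxz : x ≠ z) (hyz : y ≠ z) : (c3 x y z)⁻¹ = c3 y x z := by
  apply eq_c3 hxy.symm hyz hxz
  · rw [Perm.inv_eq_iff_eq, c3_left hxy hxz hyz]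
  · rw [Perm.inv_eq_iff_eq, c3_right hxy hxz hyz]
  · rw [Perm.inv_eq_iff_eq, c3_mid hxy hxz hyz]
  · intro t t1 t2 t3
    rw [Perm.inv_eq_iff_eq, c3_other t2 t1 t3]

theorem isThreeCycle_c3 {x y z : α} (hxy : x ≠ y) (hxz : x ≠ z) (hyz : y ≠ z) :
    (c3 x y z).IsThreeCycle := by
  have := isThreeCycle_swap_mul_swap_same hxy.symm hyz hxz
  rwa [swap_comm y x] at this

/-- Every three-cycle is of the form `c3`. -/
theorem IsThreeCycle_eq_c3 {σ : Perm α} (h : σ.IsThreeCycle) {x : α} (hx : σ x ≠ x) :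
    σ x ≠ x ∧ σ (σ x) ≠ x ∧ σ (σ x) ≠ σ x ∧ σ = c3 x (σ x) (σ (σ x)) := by
  have hcube : σ ^ 3 = 1 := by
    have := pow_orderOf_eq_one σ
    rwa [h.orderOf] at this
  have h3 : σ (σ (σ x)) = x := by
    have := congrArg (fun f : Perm α => f x) hcube
    simpa [pow_succ, Perm.mul_apply] using this
  have h1 : σ (σ x) ≠ σ x := fun he => hx (σ.injective he)
  have h2 : σ (σ x) ≠ x := by
    intro he
    rw [he] at h3
    exact hx h3
  refine ⟨hx, h2, h1, ?_⟩
  apply eq_c3 hx.symm h2.symm h1.symm rfl rfl h3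
  intro t t1 t2 t3
  by_contra ht
  have hsup : ({x, σ x, σ (σ x), t} : Finset α) ⊆ σ.support := by
    intro u hu
    simp only [Finset.mem_insert, Finset.mem_singleton] at hu
    rcases hu with rfl | rfl | rfl | rfl
    · exact Perm.mem_support.2 hx
    · exact Perm.mem_support.2 (fun he => hx (σ.injective he))
    · exact Perm.mem_support.2 (by rw [h3]; exact h2.symm)
    · exact Perm.mem_support.2 ht
  have hcard : ({x, σ x, σ (σ x), t} : Finset α).card = 4 := by
    rw [Finset.card_insert_of_notMem, Finset.card_insert_of_notMem, Finset.card_insert_of_notMem,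
      Finset.card_singleton]
    · simpa using t3.symm
    · simp only [Finset.mem_insert, Finset.mem_singleton, not_or]
      exact ⟨h1.symm, t2.symm⟩
    · simp only [Finset.mem_insert, Finset.mem_singleton, not_or]
      exact ⟨hx.symm, h2.symm, t1.symm⟩
  have := Finset.card_le_card hsup
  rw [h.card_support, hcard] at this
  omega

section relation

variable (M : Subgroup (Perm α))

/-- Two points are related if they lie on a common three-cycle of `M`. -/
def e3Rel (x y : α) : Prop := x = y ∨ ∃ t, x ≠ y ∧ x ≠ t ∧ y ≠ t ∧ c3 x y t ∈ M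

variable {M}

theorem c3_mem_conj {g : Perm α} (hg : g ∈ M) {x y z : α} (h : c3 x y z ∈ M) :
    c3 (g x) (g y) (g z) ∈ M := by
  rw [← c3_conj]
  exact M.mul_mem (M.mul_mem hg h) (M.inv_mem hg)

theorem c3_mem_cyc {x y z : α} (hxy : x ≠ y) (hxz : x ≠ z) (hyz : y ≠ z) (h : c3 x y z ∈ M) :
    c3 y z x ∈ M := by
  rwa [← c3_cyc hxy hxz hyz]

theorem c3_mem_inv {x y z : α} (hxy : x ≠ y) (hxz : x ≠ z) (hyz : y ≠ z) (h : c3 x y z ∈ M) :
    c3 y x z ∈ M := by
  rw [← c3_inv hxy hxz hyz]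
  exact M.inv_mem h

theorem e3Rel_symm {x y : α} (h : e3Rel M x y) : e3Rel M y x := by
  rcases h with rfl | ⟨t, h1, h2, h3, h4⟩
  · exact Or.inl rfl
  · exact Or.inr ⟨t, h1.symm, h3, h2, c3_mem_inv h1 h2 h3 h4⟩

theorem e3Rel_trans {x y w : α} (h₁ : e3Rel M x y) (h₂ : e3Rel M y w) : e3Rel M x w := by
  rcases h₁ with rfl | ⟨t, a1, a2, a3, a4⟩
  · exact h₂
  rcases h₂ with rfl | ⟨s, b1, b2, b3, b4⟩
  · exact Or.inr ⟨t, a1, a2, a3, a4⟩
  by_cases hxw : x = w
  · exact Or.inl hxw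
  by_cases hxs : x = s
  · subst hxs
    -- `c3 y w x ∈ M`, so `c3 x w y ∈ M`
    refine Or.inr ⟨y, hxw, a1, b1.symm, ?_⟩
    have h1 : c3 w y x ∈ M := c3_mem_inv b1 b2 b3 b4
    have h2 : c3 y x w ∈ M := c3_mem_cyc b1.symm b3 b2 h1
    exact c3_mem_cyc a1.symm b1 hxw h2
  · -- conjugate
    have hgx : c3 y w s x = x := c3_other a1 hxw hxs
    have hgy : c3 y w s y = w := c3_left b1 b2 b3
    have h := c3_mem_conj b4 a4
    rw [hgx, hgy] at h
    refine Or.inr ⟨c3 y w s t, hxw, ?_, ?_, h⟩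
    · intro he
      exact a2 ((c3 y w s).injective (he.symm.trans hgx.symm)).symm
    · intro he
      exact a3 ((c3 y w s).injective (he.symm.trans hgy.symm)).symm

variable (M) in
/-- The setoid defined by the three-cycles of `M`. -/
def e3 : Setoid α where
  r := e3Rel M
  iseqv := ⟨fun _ => Or.inl rfl, e3Rel_symm, e3Rel_trans⟩

theorem e3_r {x y : α} : (e3 M).r x y ↔ e3Rel M x y := Iff.rfl

theorem e3_invariant {g : Perm α} (hg : g ∈ M) {x y : α} (h : (e3 M).r x y) : (e3 M).r (g x) (g y) := by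
  rcases h with rfl | ⟨t, h1, h2, h3, h4⟩
  · exact Or.inl rfl
  · refine Or.inr ⟨g t, fun he => h1 (g.injective he), fun he => h2 (g.injective he),
      fun he => h3 (g.injective he), c3_mem_conj hg h4⟩

/-- All three-cycles on a class lie in `M`. -/
theorem c3_mem_of_related {x y z : α} (hxy : x ≠ y) (hxz : x ≠ z) (hyz : y ≠ z)
    (h1 : (e3 M).r x y) (h2 : (e3 M).r y z) : c3 x y z ∈ M := by
  obtain ⟨t, -, hxt, hyt, ht⟩ := h1.resolve_left hxy
  by_cases htz : t = z
  · rwa [htz] at ht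
  have hrxt : (e3 M).r x t := by
    refine Or.inr ⟨y, hxt, hxy, hyt.symm, ?_⟩
    -- `c3 x t y` is the inverse of `c3 x y t`
    have h3 : c3 y x t ∈ M := c3_mem_inv hxy hxt hyt ht
    exact c3_mem_cyc hxy.symm hyt hxt h3
  have hrtz : (e3 M).r t z :=
    (e3 M).iseqv.trans ((e3 M).iseqv.symm hrxt) ((e3 M).iseqv.trans (Or.inr ⟨t, hxy, hxt, hyt, ht⟩) h2)
  obtain ⟨s, -, hts, hzs, hs⟩ := hrtz.resolve_left htz
  by_cases hsx : s = x
  · subst hsx
    have gx : c3 t z s s = t := c3_right htz hts hzs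
    have gy : c3 t z s y = y := c3_other hyt hyz hxy.symm
    have gt : c3 t z s t = z := c3_left htz hts hzs
    have gz : c3 t z s z = s := c3_mid htz hts hzs
    have h3 := c3_mem_conj hs ht
    rw [gx, gy, gt] at h3
    have h4 := c3_mem_conj hs h3
    rw [gt, gy, gz] at h4
    have h5 : c3 y s z ∈ M := c3_mem_cyc hyz.symm hzs hxy.symm h4
    exact c3_mem_inv hxy.symm hyz hxz h5
  by_cases hsy : s = y
  · subst hsy
    have gx : c3 t z s x = x := c3_other hxt hxz hxy
    have gy : c3 t z s s = t := c3_right htz hts hzs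
    have gt : c3 t z s t = z := c3_left htz hts hzs
    have gz : c3 t z s z = s := c3_mid htz hts hzs
    have h3 := c3_mem_conj hs ht
    rw [gx, gy, gt] at h3
    have h4 := c3_mem_conj hs h3
    rw [gx, gt, gz] at h4
    have h5 : c3 z x s ∈ M := c3_mem_inv hxz hxy hzs h4
    exact c3_mem_cyc hxz.symm hzs hxy h5
  · have gx : c3 t z s x = x := c3_other hxt hxz (Ne.symm hsx)
    have gy : c3 t z s y = y := c3_other hyt hyz (Ne.symm hsy)
    have gt : c3 t z s t = z := c3_left htz hts hzs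
    have h3 := c3_mem_conj hs ht
    rwa [gx, gy, gt] at h3

end relation

end Cfsg.Agent.Lib.HallSym.C3
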