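import Cfsg.Agent.Lib.HallSym.JordanLite
import Cfsg.Agent.Lib.Signal.Basic

/-!
# Class-preserving permutations, orbit setoid, cycles inside a class
-/

set_option autoImplicit false
set_option linter.unusedSectionVars false

open Equiv Equiv.Perm MulAction
open Cfsg.Agent.Lib.HallSym.Basic

namespace Cfsg.Agent.Lib.HallSym.Class

variable {α : Type*} [Fintype α] [DecidableEq α]

/-- Permutations preserving every class of a setoid. -/
def classPres (s : Setoid α) : Subgroup (Perm α) where
  carrier := {g | ∀ x, s.r (g x) x}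
  mul_mem' := by
    intro g h hg hh x
    exact s.iseqv.trans (hg (h x)) (hh x)
  one_mem' := fun x => s.iseqv.refl x
  inv_mem' := by
    intro g hg x
    have := hg (g⁻¹ x)
    rw [show g (g⁻¹ x) = x by simp] at this
    exact s.iseqv.symm this

theorem mem_classPres {s : Setoid α} {g : Perm α} : g ∈ classPres s ↔ ∀ x, s.r (g x) x := Iff.rfl

/-- The setoid of orbits of a subgroup. -/
def orbS (M : Subgroup (Perm α)) : Setoid α where
  r x y := ∃ g ∈ M, g y = x
  iseqv :=
    { refl := fun x => ⟨1, M.one_mem, rfl⟩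
      symm := by
        rintro x y ⟨g, hg, rfl⟩
        exact ⟨g⁻¹, M.inv_mem hg, by simp⟩
      trans := by
        rintro x y z ⟨g, hg, rfl⟩ ⟨h, hh, rfl⟩
        exact ⟨g * h, M.mul_mem hg hh, rfl⟩ }

theorem orbS_r {M : Subgroup (Perm α)} {x y : α} : (orbS M).r x y ↔ ∃ g ∈ M, g y = x := Iff.rfl

theorem le_classPres_orbS (M : Subgroup (Perm α)) : M ≤ classPres (orbS M) :=
  fun g hg x => ⟨g, hg, rfl⟩

open Classical in
/-- The class of a point, as a finset. -/
noncomputable def classF (s : Setoid α) (a : α) : Finset α := Finset.univ.filter (fun y => s.r y a)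

theorem mem_classF {s : Setoid α} {a y : α} : y ∈ classF s a ↔ s.r y a := by
  classical
  simp [classF]

theorem self_mem_classF (s : Setoid α) (a : α) : a ∈ classF s a :=
  mem_classF.2 (s.iseqv.refl a)

theorem classF_eq {s : Setoid α} {a b : α} (h : s.r a b) : classF s a = classF s b := by
  ext y
  rw [mem_classF, mem_classF]
  exact ⟨fun hy => s.iseqv.trans hy h, fun hy => s.iseqv.trans hy (s.iseqv.symm h)⟩

/-- A permutation moving only points of a class preserves all classes. -/
theorem mem_classPres_of_support_subset {s : Setoid α} {a : α} {z : Perm α}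
    (hz : z.support ⊆ classF s a) : z ∈ classPres s := by
  intro x
  by_cases hx : x ∈ z.support
  · have h1 := mem_classF.1 (hz hx)
    have h2 := mem_classF.1 (hz (Perm.apply_mem_support.2 hx))
    exact s.iseqv.trans h2 (s.iseqv.symm h1)
  · have : z x = x := by simpa using hx
    rw [this]

/-- Conjugating a cycle with support in a class into `M`, by an element of a group preserving classes. -/
theorem exists_cycle_in_class {s : Setoid α} {M W : Subgroup (Perm α)} (hW : W ≤ classPres s)
    {p k : ℕ} (hp : p.Prime) (hi : ¬ p ∣ M.relIndex W) {z : Perm α} (hz : z.IsCycle)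
    (hzk : z.support.card = p ^ k) (hzW : z ∈ W) {a : α} (hzY : z.support ⊆ classF s a) :
    ∃ z' ∈ M, z'.IsCycle ∧ z'.support.card = p ^ k ∧ z'.support ⊆ classF s a := by
  haveI : Fact p.Prime := ⟨hp⟩
  have hpow : z ^ p ^ k = 1 := by rw [← hzk]; exact IsCycle_pow_card hz
  obtain ⟨w, hw, hwz⟩ := exists_conj_mem_of_pow_eq_one hzW hpow hi
  refine ⟨_, hwz, ?_, ?_, ?_⟩
  · have := hz.conj (g := w⁻¹)
    simpa using this
  · have : w⁻¹ * z * w = w⁻¹ * z * (w⁻¹)⁻¹ := by simp
    rw [this, Perm.support_conj]
    simpa using hzk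
  · intro y hy
    have hyy : y ∈ (w⁻¹ * z * (w⁻¹)⁻¹).support := by simpa using hy
    rw [Perm.support_conj] at hyy
    obtain ⟨u, hu, rfl⟩ := Finset.mem_map.1 hyy
    have h1 := mem_classF.1 (hzY hu)
    have h2 := (W.inv_mem hw |> hW) u
    exact mem_classF.2 (s.iseqv.trans h2 h1)

/-- `g` swapping two points has even order. -/
theorem two_dvd_orderOf_of_swap {g : Perm α} {a b : α} (hab : a ≠ b) (h1 : g a = b) (h2 : g b = a) :
    2 ∣ orderOf g := by
  by_contra hodd
  have hodd' : Odd (orderOf g) := by
    rcases Nat.even_or_odd (orderOf g) with h | h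
    · exact absurd h.two_dvd hodd
    · exact h
  obtain ⟨t, ht⟩ := hodd'
  have hsq : (g ^ 2) a = a := by
    rw [pow_two, Perm.mul_apply, h1, h2]
  have hsqt : ∀ t : ℕ, ((g ^ 2) ^ t) a = a := by
    intro t
    induction t with
    | zero => simp
    | succ t ih => rw [pow_succ, Perm.mul_apply, hsq, ih]
  have h3 : g ^ (2 * t + 1) = g * (g ^ 2) ^ t := by
    rw [pow_succ', pow_mul]
  have h4 : (g ^ (2 * t + 1)) a = b := by
    rw [h3, Perm.mul_apply, hsqt, h1]
  rw [← ht, pow_orderOf_eq_one] at h4
  exact hab h4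

/-- `s` permuting three distinct points cyclically has order divisible by 3. -/
theorem three_dvd_orderOf {g : Perm α} {a b c : α} (hab : a ≠ b) (h1 : g a = b) (h2 : g b = c)
    (h3 : g c = a) : 3 ∣ orderOf g := by
  by_contra hnd
  have hcop : Nat.Coprime 3 (orderOf g) := (Nat.Prime.coprime_iff_not_dvd Nat.prime_three).2 hnd
  have hcube : (g ^ 3) a = a := by
    simp only [pow_succ, pow_zero, one_mul, Perm.mul_apply, h1, h2, h3]
  have hord : 0 < orderOf g := orderOf_pos g
  by_cases hone : orderOf g = 1
  · have : g = 1 := orderOf_eq_one_iff.1 hone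
    rw [this] at h1
    exact hab (by simpa using h1)
  have hgt : 1 < orderOf g := by omega
  obtain ⟨k, -, hk⟩ := Nat.exists_mul_mod_eq_one_of_coprime hcop hgt
  have hpow : (g ^ 3) ^ k = g := by
    rw [← pow_mul, ← pow_mod_orderOf, hk, pow_one]
  have hall : ∀ t : ℕ, ((g ^ 3) ^ t) a = a := by
    intro t
    induction t with
    | zero => simp
    | succ t ih => rw [pow_succ, Perm.mul_apply, hcube, ih]
  have := hall k
  rw [hpow, h1] at this
  exact hab this.symm

/-- Order of an element of a subgroup divides the order of the subgroup. -/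
theorem orderOf_dvd_card_of_mem {M : Subgroup (Perm α)} {g : Perm α} (hg : g ∈ M) :
    orderOf g ∣ Nat.card M := by
  have := orderOf_dvd_natCard (⟨g, hg⟩ : M)
  rwa [Subgroup.orderOf_mk] at this

end Cfsg.Agent.Lib.HallSym.Class
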