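import Cfsg.Agent.Lib.HallSym.ESwap

/-!
# Colourings with four colours, up to the exchange of the colours 0 and 1
-/

set_option autoImplicit false
set_option linter.unusedSectionVars false

open Equiv Equiv.Perm MulAction
open Cfsg.Agent.Lib.HallSym.Basic Cfsg.Agent.Lib.HallSym.Class Cfsg.Agent.Lib.HallSym.AltExt

namespace Cfsg.Agent.Lib.HallSym.Coloring

variable {α : Type*} [Fintype α] [DecidableEq α]

/-- Exchange of the colours 0 and 1. -/
def sw : Perm (Fin 4) := swap 0 1

theorem sw_sw (i : Fin 4) : sw (sw i) = i := by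
  revert i; decide

theorem sw_two : sw 2 = 2 := by decide
theorem sw_three : sw 3 = 3 := by decide
theorem sw_zero : sw 0 = 1 := by decide
theorem sw_one : sw 1 = 0 := by decide

/-- Permutations preserving a colouring up to the exchange of the colours 0 and 1. -/
def W (c : α → Fin 4) : Subgroup (Perm α) where
  carrier := {g | (∀ x, c (g x) = c x) ∨ (∀ x, c (g x) = sw (c x))}
  one_mem' := Or.inl (fun _ => rfl)
  mul_mem' := by
    rintro g h (hg | hg) (hh | hh)
    · exact Or.inl (fun x => by rw [Perm.mul_apply, hg, hh])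
    · exact Or.inr (fun x => by rw [Perm.mul_apply, hg, hh])
    · exact Or.inr (fun x => by rw [Perm.mul_apply, hg, hh])
    · exact Or.inl (fun x => by rw [Perm.mul_apply, hg, hh, sw_sw])
  inv_mem' := by
    rintro g (hg | hg)
    · refine Or.inl (fun x => ?_)
      have := hg (g⁻¹ x)
      rw [show g (g⁻¹ x) = x by simp] at this
      exact this.symm
    · refine Or.inr (fun x => ?_)
      have := hg (g⁻¹ x)
      rw [show g (g⁻¹ x) = x by simp] at this
      rw [this, sw_sw]

theorem mem_W {c : α → Fin 4} {g : Perm α} :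
    g ∈ W c ↔ (∀ x, c (g x) = c x) ∨ (∀ x, c (g x) = sw (c x)) := Iff.rfl

/-- The size of a colour class. -/
def F (c : α → Fin 4) (i : Fin 4) : ℕ := Fintype.card {a // c a = i}

theorem mem_classPres_ker {c : α → Fin 4} {g : Perm α} :
    g ∈ classPres (Setoid.ker c) ↔ ∀ x, c (g x) = c x := Iff.rfl

theorem classPres_le_W (c : α → Fin 4) : classPres (Setoid.ker c) ≤ W c :=
  fun _ hg => Or.inl hg

theorem card_X (c : α → Fin 4) : Nat.card (classPres (Setoid.ker c)) =
    (F c 0).factorial * (F c 1).factorial * (F c 2).factorial * (F c 3).factorial := by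
  rw [card_classPres_ker, Fin.prod_univ_four]
  rfl

/-- An element of `W c` of odd order preserves the colours. -/
theorem preserves_of_odd {c : α → Fin 4} {g : Perm α} (hg : g ∈ W c) (hodd : Odd (orderOf g)) :
    ∀ x, c (g x) = c x := by
  rcases hg with hg | hg
  · exact hg
  · intro x
    have hsq : ∀ t : ℕ, ∀ y, c ((g ^ (2 * t)) y) = c y := by
      intro t
      induction t with
      | zero => simp
      | succ t ih =>
        intro y
        rw [show 2 * (t + 1) = 2 * t + 2 by ring, pow_add, Perm.mul_apply, ih, pow_two, Perm.mul_apply,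
          hg, hg, sw_sw]
    obtain ⟨t, ht⟩ := hodd
    have h1 : g ^ (2 * t) * g = 1 := by
      rw [← pow_succ, ← ht, pow_orderOf_eq_one]
    have h2 : c ((g ^ (2 * t) * g) x) = c (g x) := by
      rw [Perm.mul_apply, hsq]
    rw [h1] at h2
    exact h2.symm

/-- Primes dividing `|W c|`. -/
theorem prime_of_dvd_card_W (c : α → Fin 4) {r : ℕ} (hr : r.Prime) (h : r ∣ Nat.card (W c)) :
    r = 2 ∨ ∃ i, r ≤ F c i := by
  classical
  by_cases hr2 : r = 2
  · exact Or.inl hr2
  right
  have hF : Fact r.Prime := ⟨hr⟩
  obtain ⟨t, ht⟩ := exists_prime_orderOf_dvd_card' r h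
  have ht' : orderOf (t : Perm α) = r := by rwa [Subgroup.orderOf_coe]
  have hodd : Odd (orderOf (t : Perm α)) := by
    rw [ht']; exact hr.odd_of_ne_two hr2
  have hX : (t : Perm α) ∈ classPres (Setoid.ker c) := preserves_of_odd t.2 hodd
  have hdvd : r ∣ Nat.card (classPres (Setoid.ker c)) := by
    have := orderOf_dvd_card_of_mem hX
    rwa [ht'] at this
  rw [card_classPres_ker] at hdvd
  obtain ⟨i, -, hi⟩ := (Prime.dvd_finsetProd_iff (Nat.Prime.prime hr) _).1 hdvd
  exact ⟨i, (Nat.Prime.dvd_factorial hr).1 hi⟩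

/-- Total size. -/
theorem sum_F (c : α → Fin 4) : F c 0 + F c 1 + F c 2 + F c 3 = Fintype.card α := by
  classical
  have h := Finset.card_eq_sum_card_fiberwise (f := c) (s := Finset.univ) (t := Finset.univ)
    (fun x _ => Finset.mem_univ _)
  rw [Fin.sum_univ_four] at h
  simp only [Finset.card_univ] at h
  rw [h]
  simp only [F, Fintype.card_subtype]

/-- Two colourings with the same colour sizes differ by a permutation. -/
theorem exists_perm_of_F_eq (c c' : α → Fin 4) (h : ∀ i, F c i = F c' i) :
    ∃ g : Perm α, ∀ x, c' (g x) = c x := by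
  classical
  let e : ∀ i, {a // c a = i} ≃ {a // c' a = i} := fun i => Fintype.equivOfCardEq (h i)
  refine ⟨Equiv.ofFiberEquiv e, fun x => Equiv.ofFiberEquiv_map e x⟩

/-- Conjugation of `W`. -/
theorem W_conj {c c' : α → Fin 4} {g : Perm α} (h : ∀ x, c' (g x) = c x) :
    W c' = (W c).map (MulAut.conj g).toMonoidHom := by
  ext t
  simp only [Subgroup.mem_map, MulEquiv.coe_toMonoidHom, MulAut.conj_apply]
  constructor
  · intro ht
    refine ⟨g⁻¹ * t * g, ?_, by group⟩
    rcases ht with ht | ht
    · refine Or.inl (fun x => ?_)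
      rw [← h ((g⁻¹ * t * g) x), show g ((g⁻¹ * t * g) x) = t (g x) by simp [Perm.mul_apply], ht, h]
    · refine Or.inr (fun x => ?_)
      rw [← h ((g⁻¹ * t * g) x), show g ((g⁻¹ * t * g) x) = t (g x) by simp [Perm.mul_apply], ht, h]
  · rintro ⟨s, hs, rfl⟩
    have key : ∀ y, c' ((g * s * g⁻¹) y) = c (s (g⁻¹ y)) := by
      intro y
      simp only [Perm.mul_apply, h]
    have key2 : ∀ y, c (g⁻¹ y) = c' y := by
      intro y
      rw [← h (g⁻¹ y)]
      simp
    rcases hs with hs | hs
    · refine Or.inl (fun y => ?_)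
      rw [key, hs, key2]
    · refine Or.inr (fun y => ?_)
      rw [key, hs, key2]

/-- Conjugacy of `W c` and `W c'` when the colour sizes agree. -/
theorem W_conj_of_F_eq (c c' : α → Fin 4) (h : ∀ i, F c i = F c' i) :
    ∃ g : Perm α, W c' = (W c).map (MulAut.conj g).toMonoidHom := by
  obtain ⟨g, hg⟩ := exists_perm_of_F_eq c c' h
  exact ⟨g, W_conj hg⟩

/-- If the colours 0 and 1 are not used, `W` is the group of colour-preserving permutations. -/
theorem W_eq_X_of_empty {c : α → Fin 4} (h : ∀ x, c x ≠ 0 ∧ c x ≠ 1) :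
    W c = classPres (Setoid.ker c) := by
  apply le_antisymm _ (classPres_le_W c)
  rintro g (hg | hg)
  · exact hg
  · intro x
    have h1 := hg x
    have h2 : sw (c x) = c x := by
      obtain ⟨h3, h4⟩ := h x
      revert h3 h4
      generalize c x = i
      revert i
      decide
    show c (g x) = c x
    rw [h1, h2]

theorem not_color_of_F_zero {c : α → Fin 4} {i : Fin 4} (h : F c i = 0) (x : α) : c x ≠ i := by
  intro hx
  have : Nonempty {a // c a = i} := ⟨⟨x, hx⟩⟩
  have h2 := Fintype.card_pos (α := {a // c a = i})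
  rw [F] at h
  omega

/-- The colours 0 and 1 may be exchanged if they have the same size. -/
theorem exists_sw_of_F_eq {c : α → Fin 4} (h : F c 0 = F c 1) : ∃ g : Perm α, ∀ x, c (g x) = sw (c x) := by
  classical
  have key : ∀ i, F c i = F (fun x => sw (c x)) i := by
    have aux : ∀ i, F (fun x => sw (c x)) i = F c (sw i) := by
      intro i
      simp only [F]
      apply Fintype.card_congr
      refine Equiv.subtypeEquivRight (fun x => ?_)
      constructor
      · intro hx
        rw [← hx, sw_sw]
      · intro hx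
        rw [hx, sw_sw]
    intro i
    rw [aux]
    have h2 : ∀ j : Fin 4, j = 0 ∨ j = 1 ∨ j = 2 ∨ j = 3 := by decide
    rcases h2 i with rfl | rfl | rfl | rfl
    · rw [sw_zero]; exact h
    · rw [sw_one]; exact h.symm
    · rw [sw_two]
    · rw [sw_three]
  obtain ⟨g, hg⟩ := exists_perm_of_F_eq c (fun x => sw (c x)) key
  refine ⟨g⁻¹, fun x => ?_⟩
  have := hg (g⁻¹ x)
  rw [show g (g⁻¹ x) = x by simp] at this
  exact this.symm

/-- Order of `W c` if a colour-exchanging permutation exists and is not colour-preserving. -/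
theorem card_W_of_pos {c : α → Fin 4} (h : F c 0 = F c 1) (h0 : F c 0 ≠ 0) :
    Nat.card (W c) = 2 * Nat.card (classPres (Setoid.ker c)) := by
  classical
  obtain ⟨g, hg⟩ := exists_sw_of_F_eq h
  obtain ⟨x₀, hx₀⟩ : ∃ x, c x = 0 := by
    by_contra hcon
    push Not at hcon
    apply h0
    rw [F, Fintype.card_eq_zero_iff]
    exact ⟨fun a => hcon a.1 a.2⟩
  have hgW : g ∈ W c := Or.inr hg
  have hgX : g ∉ classPres (Setoid.ker c) := by
    intro h1
    have h2 : c (g x₀) = c x₀ := h1 x₀
    rw [hg, hx₀, sw_zero] at h2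
    exact absurd h2 (by decide)
  have hidx : (classPres (Setoid.ker c)).relIndex (W c) = 2 := by
    rw [Subgroup.relIndex, Subgroup.index_eq_two_iff]
    refine ⟨⟨g, hgW⟩, ?_⟩
    rintro ⟨t, ht⟩
    simp only [Subgroup.mem_subgroupOf, MulMemClass.mk_mul_mk]
    rcases ht with ht | ht
    · -- `t` preserves, `t * g` exchanges
      refine Or.inr ⟨ht, ?_⟩
      intro h2
      apply hgX
      have h3 : g = t⁻¹ * (t * g) := by group
      rw [h3]
      exact (classPres (Setoid.ker c)).mul_mem ((classPres (Setoid.ker c)).inv_mem ht) h2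
    · refine Or.inl ⟨?_, ?_⟩
      · intro x
        show c ((t * g) x) = c x
        rw [Perm.mul_apply, ht, hg, sw_sw]
      · intro h2
        have h3 : c (t x₀) = c x₀ := h2 x₀
        rw [ht, hx₀, sw_zero] at h3
        exact absurd h3 (by decide)
  have h1 := Subgroup.relIndex_mul_relIndex (⊥ : Subgroup (Perm α)) _ _ bot_le (classPres_le_W c)
  rw [Subgroup.relIndex_bot_left, Subgroup.relIndex_bot_left, hidx] at h1
  omega

/-- A numeric lemma. -/
theorem factorial_mul_lt {a c : ℕ} (h : a < c) (t : ℕ) (ht : t ≠ 0) :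
    c.factorial * (a + t).factorial < (c + t).factorial * a.factorial := by
  induction t with
  | zero => exact absurd rfl ht
  | succ t ih =>
    by_cases ht0 : t = 0
    · subst ht0
      simp only [zero_add, Nat.factorial_succ]
      have h1 : 0 < c.factorial * a.factorial := Nat.mul_pos (Nat.factorial_pos _) (Nat.factorial_pos _)
      nlinarith
    · have ih' := ih ht0
      rw [show a + (t + 1) = (a + t) + 1 by ring, show c + (t + 1) = (c + t) + 1 by ring,
        Nat.factorial_succ (a + t), Nat.factorial_succ (c + t)]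
      have h2 : a + t + 1 ≤ c + t + 1 := by omega
      calc c.factorial * ((a + t + 1) * (a + t).factorial)
          = (a + t + 1) * (c.factorial * (a + t).factorial) := by ring
        _ ≤ (c + t + 1) * (c.factorial * (a + t).factorial) := Nat.mul_le_mul_right _ h2
        _ < (c + t + 1) * ((c + t).factorial * a.factorial) := by
            apply Nat.mul_lt_mul_of_pos_left ih' (by omega)
        _ = (c + t + 1) * (c + t).factorial * a.factorial := by ring

/-- Uniqueness of the pair of sizes from the product of factorials. -/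
theorem eq_of_factorial_mul_eq {K v K' v' : ℕ} (h : K + v = K' + v') (hv : v ≤ K) (hv' : v' ≤ K')
    (hf : K.factorial * v.factorial = K'.factorial * v'.factorial) : K = K' := by
  rcases lt_trichotomy K K' with hlt | heq | hlt
  · exfalso
    obtain ⟨t, rfl⟩ := Nat.exists_eq_add_of_lt hlt
    have hv2 : v = v' + (t + 1) := by omega
    subst hv2
    have := factorial_mul_lt (a := v') (c := K) (by omega) (t + 1) (Nat.succ_ne_zero t)
    rw [show K + t + 1 = K + (t + 1) by ring] at hf
    nlinarith
  · exact heq
  · exfalso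
    obtain ⟨t, rfl⟩ := Nat.exists_eq_add_of_lt hlt
    have hv2 : v' = v + (t + 1) := by omega
    subst hv2
    have := factorial_mul_lt (a := v) (c := K') (by omega) (t + 1) (Nat.succ_ne_zero t)
    rw [show K' + t + 1 = K' + (t + 1) by ring] at hf
    nlinarith

end Cfsg.Agent.Lib.HallSym.Coloring
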