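import Cfsg.Agent.Lib.HallSym.Struct

/-!
# Conjugacy of Hall subgroups of symmetric groups
-/

set_option autoImplicit false
set_option linter.unusedSectionVars false

open Equiv Equiv.Perm MulAction
open Cfsg.Agent.Lib.HallSym.Basic Cfsg.Agent.Lib.HallSym.Class Cfsg.Agent.Lib.HallSym.AltExt
open Cfsg.Agent.Lib.HallSym.ESwap Cfsg.Agent.Lib.HallSym.Coloring Cfsg.Agent.Lib.HallSym.Struct
open Cfsg.Agent.Lib.HallSym.Odd

namespace Cfsg.Agent.Lib.HallSym.Conj

variable {α : Type*} [Fintype α] [DecidableEq α]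

section Main

variable {π : Set ℕ} {M : Subgroup (Perm α)}
variable (hπ : ∀ p : ℕ, p.Prime → p ∣ Nat.card M → p ∈ π)
  (hi : ∀ p : ℕ, p.Prime → p ∈ π → ¬ p ∣ M.index) (h2 : 2 ∈ π) (h3 : 3 ∈ π)
  {u e : ℕ} (hu : u.Prime) (huπ : u ∉ π) (humin : ∀ r : ℕ, r.Prime → r < u → r ∈ π)
  (hb1 : 2 ^ e < u) (hb2 : u ≤ 2 ^ (e + 1))

include hπ hi h2 h3 hu huπ humin hb1 hb2 in
/-- The structure theorem. -/
theorem exists_coloring : ∃ c : α → Fin 4, M = W c ∧ F c 0 = F c 1 ∧ (F c 0 = 0 ∨ F c 0 = 2 ^ e) ∧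
    (F c 0 = 0 → Fintype.card α < 2 ^ (e + 1)) ∧ F c 3 ≤ F c 2 ∧ F c 2 < u ∧
    (1 ≤ F c 3 → u ≤ F c 2 + F c 3) ∧ F c 2 + F c 3 < 2 ^ (e + 1) := by
  classical
  obtain ⟨S₁, S₂, hS, hd, hS₁, hS₂, hle, hK, hv, hsum⟩ :=
    exists_small_orbits hπ hi h2 hu huπ humin hb1 hb2
  obtain ⟨C₀, B, hC₀big, hC₀, hC₁, hB, hB0, hg⟩ := exists_C0 hπ hi h2 h3 hu huπ humin hb1 hb2
  let c : α → Fin 4 := fun x => if big M x then (if x ∈ C₀ then 0 else 1) else if x ∈ S₁ then 2 else 3
  have hS₁nb : ∀ x ∈ S₁, ¬ big M x := fun x hx => (hS x).1 (Or.inl hx)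
  have hS₂nb : ∀ x ∈ S₂, ¬ big M x := fun x hx => (hS x).1 (Or.inr hx)
  have hc0 : ∀ x, c x = 0 ↔ x ∈ C₀ := by
    intro x
    by_cases hb : big M x
    · by_cases hm : x ∈ C₀
      · simp [c, hb, hm]
      · simp [c, hb, hm]
    · have hm : x ∉ C₀ := fun h => hb (hC₀big x h)
      by_cases hm2 : x ∈ S₁
      · simp [c, hb, hm, hm2]
      · simp [c, hb, hm, hm2]
  have hc1 : ∀ x, c x = 1 ↔ (big M x ∧ x ∉ C₀) := by
    intro x
    by_cases hb : big M x
    · by_cases hm : x ∈ C₀
      · simp [c, hb, hm]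
      · simp [c, hb, hm]
    · by_cases hm2 : x ∈ S₁
      · simp [c, hb, hm2]
      · simp [c, hb, hm2]
  have hc2 : ∀ x, c x = 2 ↔ x ∈ S₁ := by
    intro x
    by_cases hm2 : x ∈ S₁
    · simp [c, hS₁nb x hm2, hm2]
    · by_cases hb : big M x
      · by_cases hm : x ∈ C₀
        · simp [c, hb, hm, hm2]
        · simp [c, hb, hm, hm2]
      · simp [c, hb, hm2]
  have hc3 : ∀ x, c x = 3 ↔ x ∈ S₂ := by
    intro x
    by_cases hm2 : x ∈ S₂
    · have hm1 : x ∉ S₁ := fun h => Finset.disjoint_left.1 hd h hm2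
      simp [c, hS₂nb x hm2, hm1, hm2]
    · by_cases hb : big M x
      · by_cases hm : x ∈ C₀
        · simp [c, hb, hm, hm2]
        · simp [c, hb, hm, hm2]
      · have hm1 : x ∈ S₁ := ((hS x).2 hb).resolve_right hm2
        simp [c, hb, hm1, hm2]
  have F0 : F c 0 = B := by
    rw [F, Fintype.card_subtype, ← hC₀]
    congr 1
    ext x
    simp [hc0]
  have F1 : F c 1 = B := by
    rw [F, Fintype.card_subtype, ← hC₁]
    congr 1
    ext x
    simp [hc1]
  have F2 : F c 2 = S₁.card := by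
    rw [F, Fintype.card_subtype]
    congr 1
    ext x
    simp [hc2]
  have F3 : F c 3 = S₂.card := by
    rw [F, Fintype.card_subtype]
    congr 1
    ext x
    simp [hc3]
  have hMW : M ≤ W c := by
    intro g hgM
    have hgb : ∀ x, big M (g x) ↔ big M x := fun x => big_iff_of_orbit ⟨g, hgM, rfl⟩
    have hgS₁ : ∀ x, g x ∈ S₁ ↔ x ∈ S₁ := by
      intro x
      constructor
      · intro h
        rw [← hS₁ (g x) h]
        exact mem_classF.2 ((orbS M).iseqv.symm ⟨g, hgM, rfl⟩)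
      · intro h
        rw [← hS₁ x h]
        exact mem_classF.2 ⟨g, hgM, rfl⟩
    rcases hg g hgM with hl | hr
    · refine Or.inl (fun x => ?_)
      by_cases hb : big M x
      · have := hl x hb
        simp only [c, (hgb x).2 hb, hb, this, if_true]
      · have hb' : ¬ big M (g x) := fun h => hb ((hgb x).1 h)
        simp only [c, hb, hb', hgS₁ x, if_false]
    · refine Or.inr (fun x => ?_)
      by_cases hb : big M x
      · have := hr x hb
        by_cases hm : x ∈ C₀
        · have hm' : g x ∉ C₀ := fun h => (this.1 h) hm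
          simp only [c, (hgb x).2 hb, hb, hm, hm', if_true, if_false, sw_zero]
        · have hm' : g x ∈ C₀ := this.2 hm
          simp only [c, (hgb x).2 hb, hb, hm, hm', if_true, if_false, sw_one]
      · have hb' : ¬ big M (g x) := fun h => hb ((hgb x).1 h)
        by_cases hm : x ∈ S₁
        · have hm' : g x ∈ S₁ := (hgS₁ x).2 hm
          simp only [c, hb, hb', hm, hm', if_true, if_false, sw_two]
        · have hm' : g x ∉ S₁ := fun h => hm ((hgS₁ x).1 h)
          simp only [c, hb, hb', hm, hm', if_false, sw_three]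
  have hFlt : ∀ i, F c i < u := by
    intro i
    have h4 : ∀ j : Fin 4, j = 0 ∨ j = 1 ∨ j = 2 ∨ j = 3 := by decide
    have hBu : B < u := by
      rcases hB with h | h
      · rw [h]; exact hu.pos
      · rw [h]; exact hb1
    rcases h4 i with rfl | rfl | rfl | rfl
    · rwa [F0]
    · rwa [F1]
    · rwa [F2]
    · rw [F3]; omega
  have hWπ : ∀ p : ℕ, p.Prime → p ∣ Nat.card (W c) → p ∈ π := by
    intro p hp hd
    rcases prime_of_dvd_card_W c hp hd with h | ⟨i, hi'⟩
    · rw [h]; exact h2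
    · exact humin p hp (lt_of_le_of_lt hi' (hFlt i))
  have hMeq : M = W c := le_antisymm hMW (le_of_le_of_isPi hi hMW hWπ)
  refine ⟨c, hMeq, by rw [F0, F1], by rwa [F0], ?_, by rw [F2, F3]; exact hle, by rwa [F2], ?_, by rwa [F2, F3]⟩
  · intro h0
    have := sum_F c
    rw [F0] at h0
    rw [← this, F0, F1, F2, F3, h0]
    omega
  · rw [F2, F3]; exact hv

end Main

/-- The sizes are determined. -/
theorem F_eq_of_hall {π : Set ℕ} {c c' : α → Fin 4} (hH : Cfsg.IsPiHall π (W c))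
    (hH' : Cfsg.IsPiHall π (W c')) {u e : ℕ}
    (h01 : F c 0 = F c 1) (hB : F c 0 = 0 ∨ F c 0 = 2 ^ e) (hB0 : F c 0 = 0 → Fintype.card α < 2 ^ (e + 1))
    (hle : F c 3 ≤ F c 2) (hK : F c 2 < u) (hv : 1 ≤ F c 3 → u ≤ F c 2 + F c 3)
    (h01' : F c' 0 = F c' 1) (hB' : F c' 0 = 0 ∨ F c' 0 = 2 ^ e)
    (hB0' : F c' 0 = 0 → Fintype.card α < 2 ^ (e + 1))
    (hle' : F c' 3 ≤ F c' 2) (hK' : F c' 2 < u) (hv' : 1 ≤ F c' 3 → u ≤ F c' 2 + F c' 3) :
    ∀ i, F c i = F c' i := by
  have hs := sum_F c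
  have hs' := sum_F c'
  have hpow : 2 ^ (e + 1) = 2 ^ e + 2 ^ e := by rw [pow_succ]; ring
  have hposE : 0 < 2 ^ e := by positivity
  have hB00 : F c 0 = F c' 0 := by
    rcases hB with h | h <;> rcases hB' with h' | h'
    · omega
    · have := hB0 h
      omega
    · have := hB0' h'
      omega
    · omega
  have hsum : F c 2 + F c 3 = F c' 2 + F c' 3 := by omega
  have hcard : Nat.card (W c) = Nat.card (W c') := card_eq_of_isPiHall hH hH'
  have hmain : F c 2 = F c' 2 := by
    by_cases hv0 : F c 3 = 0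
    · by_cases hv0' : F c' 3 = 0
      · omega
      · have := hv' (by omega)
        omega
    · by_cases hv0' : F c' 3 = 0
      · have := hv (by omega)
        omega
      · -- orders
        have hprod : (F c 2).factorial * (F c 3).factorial = (F c' 2).factorial * (F c' 3).factorial := by
          by_cases hB1 : F c 0 = 0
          · have hX : W c = classPres (Setoid.ker c) := W_eq_X_of_empty (fun x =>
              ⟨not_color_of_F_zero hB1 x, not_color_of_F_zero (by omega) x⟩)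
            have hX' : W c' = classPres (Setoid.ker c') := W_eq_X_of_empty (fun x =>
              ⟨not_color_of_F_zero (by omega) x, not_color_of_F_zero (by omega) x⟩)
            rw [hX, hX', card_X, card_X, ← h01, ← h01', hB1, ← hB00, hB1] at hcard
            simpa [mul_assoc] using hcard
          · have h1 := card_W_of_pos h01 hB1
            have h2 := card_W_of_pos h01' (by omega)
            rw [h1, h2, card_X, card_X, ← h01, ← h01', ← hB00] at hcard
            have hpos : 0 < (F c 0).factorial := Nat.factorial_pos _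
            have h3 : 2 * ((F c 0).factorial * (F c 0).factorial) * ((F c 2).factorial * (F c 3).factorial) =
                2 * ((F c 0).factorial * (F c 0).factorial) * ((F c' 2).factorial * (F c' 3).factorial) := by
              linarith
            exact Nat.eq_of_mul_eq_mul_left (by positivity) h3
        exact eq_of_factorial_mul_eq hsum hle hle' hprod
  intro i
  have h4 : ∀ j : Fin 4, j = 0 ∨ j = 1 ∨ j = 2 ∨ j = 3 := by decide
  rcases h4 i with rfl | rfl | rfl | rfl
  · exact hB00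
  · omega
  · exact hmain
  · omega

/-- Conjugacy when at most one prime of `π` divides the order of the group. -/
theorem conj_of_unique_prime {G : Type*} [Group G] [Finite G] {π : Set ℕ} {H K : Subgroup G}
    (hH : Cfsg.IsPiHall π H) (hK : Cfsg.IsPiHall π K)
    (h : ∀ r s : ℕ, r.Prime → s.Prime → r ∈ π → s ∈ π → r ∣ Nat.card G → s ∣ Nat.card G → r = s) :
    ∃ g : G, K = H.map (MulAut.conj g).toMonoidHom := by
  classical
  have hcard := card_eq_of_isPiHall hH hK
  by_cases hK1 : Nat.card K = 1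
  · refine ⟨1, ?_⟩
    have h1 : K = ⊥ := Subgroup.eq_bot_of_card_eq K hK1
    have h2 : H = ⊥ := Subgroup.eq_bot_of_card_eq H (by omega)
    rw [h1, h2]
    simp
  · obtain ⟨p, hp, hpd⟩ := Nat.exists_prime_and_dvd hK1
    have hF : Fact p.Prime := ⟨hp⟩
    have hpπ := hK.1 p hp hpd
    have hKG : Nat.card K ∣ Nat.card G := Subgroup.card_subgroup_dvd_card K
    have hKp : IsPGroup p K := by
      apply IsPGroup.of_card (n := (Nat.primeFactorsList (Nat.card K)).length)
      apply Nat.eq_prime_pow_of_unique_prime_dvd (Nat.card_pos.ne')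
      intro d hd hdvd
      exact h d p hd hp (hK.1 d hd hdvd) hpπ (hdvd.trans hKG) (hpd.trans hKG)
    have hi' : ¬ p ∣ H.relIndex ⊤ := by
      rw [Subgroup.relIndex_top_right]
      exact hH.2 p hp hpπ
    obtain ⟨w, -, hw⟩ := exists_conj_le_of_isPGroup (W := ⊤) (M := H) le_top hKp hi'
    refine ⟨w, ?_⟩
    apply Subgroup.eq_of_le_of_card_ge
    · intro x hx
      exact ⟨w⁻¹ * x * w, hw x hx, by simp [mul_assoc]⟩
    · rw [Subgroup.card_map_of_injective (MulEquiv.injective _), hcard]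

/-- Conjugacy of Hall subgroups of symmetric groups. -/
theorem hall_conj_sym {π : Set ℕ} {M M' : Subgroup (Perm α)} (h : Cfsg.IsPiHall π M)
    (h' : Cfsg.IsPiHall π M') : ∃ g : Perm α, M' = M.map (MulAut.conj g).toMonoidHom := by
  classical
  by_cases hP : ∀ r s : ℕ, r.Prime → s.Prime → r ∈ π → s ∈ π → r ≤ Fintype.card α → s ≤ Fintype.card α → r = s
  · refine conj_of_unique_prime h h' ?_
    intro r s hr hs hrπ hsπ hrd hsd
    rw [Nat.card_eq_fintype_card, Fintype.card_perm] at hrd hsd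
    exact hP r s hr hs hrπ hsπ ((Nat.Prime.dvd_factorial hr).1 hrd) ((Nat.Prime.dvd_factorial hs).1 hsd)
  · push Not at hP
    obtain ⟨r, s, hr, hs, hrπ, hsπ, hrn, hsn, hrs⟩ := hP
    have hodd : ∃ q₁ q₂ : ℕ, q₁.Prime ∧ q₂.Prime ∧ q₁ < q₂ ∧ q₁ ∈ π ∧ q₂ ∈ π ∧ q₂ ≤ Fintype.card α := by
      rcases lt_or_gt_of_ne hrs with hlt | hlt
      · exact ⟨r, s, hr, hs, hlt, hrπ, hsπ, hsn⟩
      · exact ⟨s, r, hs, hr, hlt, hsπ, hrπ, hrn⟩
    obtain ⟨q₁, q₂, hq₁, hq₂, hlt, h₁, h₂, hq₂n⟩ := hodd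
    have h2 : 2 ∈ π := two_mem_of_two_primes h.1 h.2 hq₁ hq₂ hlt h₁ h₂ hq₂n
    have hq₂2 : q₂ ≠ 2 := by
      have := hq₁.two_le
      omega
    have h3 : 3 ∈ π := three_mem_sym h.1 h.2 h2 hq₂ hq₂2 h₂ hq₂n
    by_cases hU : ∃ u : ℕ, u.Prime ∧ u ∉ π ∧ u ≤ Fintype.card α
    · -- the smallest prime not in `π`
      have hU' : ∃ u : ℕ, u.Prime ∧ u ∉ π := by
        obtain ⟨u, h4, h5, -⟩ := hU
        exact ⟨u, h4, h5⟩
      set u := Nat.find hU' with hu
      obtain ⟨hup, huπ⟩ : u.Prime ∧ u ∉ π := Nat.find_spec hU'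
      have humin : ∀ r : ℕ, r.Prime → r < u → r ∈ π := by
        intro r hr hlt
        by_contra hcon
        exact Nat.find_min hU' hlt ⟨hr, hcon⟩
      set e := Nat.log 2 (u - 1) with he
      have hu2 := hup.two_le
      have hb1 : 2 ^ e < u := by
        have h9 : 2 ^ e ≤ u - 1 := Nat.pow_log_le_self 2 (x := u - 1) (by omega)
        omega
      have hb2 : u ≤ 2 ^ (e + 1) := by
        have h9 : u - 1 < 2 ^ (e + 1) := Nat.lt_pow_succ_log_self (b := 2) (by norm_num) (u - 1)
        omega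
      obtain ⟨c, hc, a1, a2, a3, a4, a5, a6, -⟩ := exists_coloring h.1 h.2 h2 h3 hup huπ humin hb1 hb2
      obtain ⟨c', hc', b1, b2, b3, b4, b5, b6, -⟩ := exists_coloring h'.1 h'.2 h2 h3 hup huπ humin hb1 hb2
      have hF := F_eq_of_hall (hc ▸ h) (hc' ▸ h') a1 a2 a3 a4 a5 a6 b1 b2 b3 b4 b5 b6
      obtain ⟨g, hg⟩ := W_conj_of_F_eq c c' hF
      exact ⟨g, by rw [hc, hc', hg]⟩
    · push Not at hU
      have hall : ∀ {A : Subgroup (Perm α)}, Cfsg.IsPiHall π A → A = ⊤ := by
        intro A hA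
        rw [← Subgroup.index_eq_one]
        by_contra hne
        obtain ⟨p, hp, hpd⟩ := Nat.exists_prime_and_dvd hne
        have h4 : p ∣ (Fintype.card α).factorial := by
          have := dvd_card_of_dvd_index hpd
          rwa [Nat.card_eq_fintype_card, Fintype.card_perm] at this
        have h5 := (Nat.Prime.dvd_factorial hp).1 h4
        have h6 : p ∈ π := by
          by_contra h7
          have := hU p hp h7
          omega
        exact hA.2 p hp h6 hpd
      refine ⟨1, ?_⟩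
      rw [hall h, hall h']
      simp

end Cfsg.Agent.Lib.HallSym.Conj
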