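import Cfsg.Agent.Lib.HallSym.Conj

/-!
# Conjugacy of Hall subgroups of alternating groups
-/

set_option autoImplicit false
set_option linter.unusedSectionVars false

open Equiv Equiv.Perm MulAction
open Cfsg.Agent.Lib.HallSym.Basic Cfsg.Agent.Lib.HallSym.Class Cfsg.Agent.Lib.HallSym.AltExt
open Cfsg.Agent.Lib.HallSym.AltHall Cfsg.Agent.Lib.HallSym.Conj Cfsg.Agent.Lib.HallSym.Odd

namespace Cfsg.Agent.Lib.HallSym.ConjAlt

variable {α : Type*} [Fintype α] [DecidableEq α]

/-- A prime dividing the order of the alternating group is at most the degree. -/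
theorem prime_le_of_dvd_card_alt {r : ℕ} (hr : r.Prime) (h : r ∣ Nat.card ↥(alternatingGroup α)) :
    r ≤ Fintype.card α := by
  have h1 : r ∣ Nat.card (Perm α) := h.trans (Subgroup.card_subgroup_dvd_card _)
  rw [Nat.card_eq_fintype_card, Fintype.card_perm] at h1
  exact (Nat.Prime.dvd_factorial hr).1 h1

/-- Conjugacy of Hall subgroups of the alternating group. -/
theorem hall_conj_alt {π : Set ℕ} {M M' : Subgroup ↥(alternatingGroup α)} (h : Cfsg.IsPiHall π M)
    (h' : Cfsg.IsPiHall π M') :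
    ∃ g : ↥(alternatingGroup α), M' = M.map (MulAut.conj g).toMonoidHom := by
  classical
  by_cases hP : ∀ r s : ℕ, r.Prime → s.Prime → r ∈ π → s ∈ π →
      r ∣ Nat.card ↥(alternatingGroup α) → s ∣ Nat.card ↥(alternatingGroup α) → r = s
  · exact conj_of_unique_prime h h' hP
  · push Not at hP
    obtain ⟨r, s, hr, hs, hrπ, hsπ, hrd, hsd, hrs⟩ := hP
    have hrn := prime_le_of_dvd_card_alt hr hrd
    have hsn := prime_le_of_dvd_card_alt hs hsd
    obtain ⟨M₀, hM₀, hMeq, hodd⟩ := exists_lift h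
    obtain ⟨M₀', hM₀', hMeq', -⟩ := exists_lift h'
    have h2 : 2 ∈ π := by
      rcases lt_or_gt_of_ne hrs with hlt | hlt
      · exact two_mem_of_two_primes hM₀.1 hM₀.2 hr hs hlt hrπ hsπ hsn
      · exact two_mem_of_two_primes hM₀.1 hM₀.2 hs hr hlt hsπ hrπ hrn
    have hnt : Nontrivial α := by
      rw [← Fintype.one_lt_card_iff_nontrivial]
      have := hr.two_le
      omega
    obtain ⟨t, ht, hts⟩ := hodd h2 hnt
    obtain ⟨g, hg⟩ := hall_conj_sym hM₀ hM₀'
    -- make `g` even
    obtain ⟨g', hg', hg's⟩ : ∃ g' : Perm α, M₀' = M₀.map (MulAut.conj g').toMonoidHom ∧ Perm.sign g' = 1 := by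
      rcases Int.units_eq_one_or (Perm.sign g) with hs1 | hs1
      · exact ⟨g, hg, hs1⟩
      · refine ⟨g * t, ?_, ?_⟩
        · rw [hg]
          ext x
          simp only [Subgroup.mem_map, MulEquiv.coe_toMonoidHom, MulAut.conj_apply]
          constructor
          · rintro ⟨y, hy, rfl⟩
            refine ⟨t⁻¹ * y * t, M₀.mul_mem (M₀.mul_mem (M₀.inv_mem ht) hy) ht, by group⟩
          · rintro ⟨y, hy, rfl⟩
            refine ⟨t * y * t⁻¹, M₀.mul_mem (M₀.mul_mem ht hy) (M₀.inv_mem ht), by group⟩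
        · rw [map_mul, hs1, hts]
          rfl
    have hgA : g' ∈ alternatingGroup α := by
      rwa [Perm.mem_alternatingGroup]
    refine ⟨⟨g', hgA⟩, ?_⟩
    rw [hMeq, hMeq', hg']
    ext x
    simp only [Subgroup.mem_subgroupOf, Subgroup.mem_map, MulEquiv.coe_toMonoidHom, MulAut.conj_apply]
    constructor
    · rintro ⟨y, hy, hyx⟩
      have hyA : y ∈ alternatingGroup α := by
        rw [Perm.mem_alternatingGroup]
        have h3 : Perm.sign (g' * y * g'⁻¹) = 1 := by
          rw [hyx]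
          exact x.2
        simpa [hg's] using h3
      refine ⟨⟨y, hyA⟩, hy, ?_⟩
      apply Subtype.ext
      simpa using hyx
    · rintro ⟨y, hy, rfl⟩
      exact ⟨y.1, hy, rfl⟩

end Cfsg.Agent.Lib.HallSym.ConjAlt
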