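import Mathlib

/-!
# A small packing obstruction (finite case check)
-/

set_option autoImplicit false

namespace Cfsg.Agent.Lib.HallSym.NoPack

set_option maxHeartbeats 0 in
/-- The items `b-1, b-1, 2, K, v` cannot be packed exactly in the bins `b, b, K, v`. -/
theorem no_pack {b K v : ℕ} (hb : 4 ≤ b) (hle : v ≤ K) (hs : K + v < 2 * b) (hv : 1 ≤ v → b < K + v)
    (a0 a1 a2 a3 a4 : Fin 4)
    (h0 : b = (if a0 = 0 then b - 1 else 0) + (if a1 = 0 then b - 1 else 0) + (if a2 = 0 then 2 else 0) +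
      (if a3 = 0 then K else 0) + (if a4 = 0 then v else 0))
    (h1 : b = (if a0 = 1 then b - 1 else 0) + (if a1 = 1 then b - 1 else 0) + (if a2 = 1 then 2 else 0) +
      (if a3 = 1 then K else 0) + (if a4 = 1 then v else 0))
    (h2 : K = (if a0 = 2 then b - 1 else 0) + (if a1 = 2 then b - 1 else 0) + (if a2 = 2 then 2 else 0) +
      (if a3 = 2 then K else 0) + (if a4 = 2 then v else 0))
    (h3 : v = (if a0 = 3 then b - 1 else 0) + (if a1 = 3 then b - 1 else 0) + (if a2 = 3 then 2 else 0) +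
      (if a3 = 3 then K else 0) + (if a4 = 3 then v else 0)) : False := by
  have hall : ∀ j : Fin 4, j = 0 ∨ j = 1 ∨ j = 2 ∨ j = 3 := by decide
  rcases hall a0 with rfl | rfl | rfl | rfl <;> rcases hall a1 with rfl | rfl | rfl | rfl <;>
  rcases hall a2 with rfl | rfl | rfl | rfl <;> rcases hall a3 with rfl | rfl | rfl | rfl <;>
  rcases hall a4 with rfl | rfl | rfl | rfl <;>
  simp only [Fin.isValue, Fin.reduceEq, if_true, if_false, add_zero, zero_add] at h0 h1 h2 h3 <;> omega

end Cfsg.Agent.Lib.HallSym.NoPack
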