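import Cfsg.Agent.Lib.HallSym.ConjAlt
import Cfsg.Agent.Lib.HallSym.NoPack

/-!
# The full Sylow analogue for alternating groups
-/

set_option autoImplicit false
set_option linter.unusedSectionVars false

open Equiv Equiv.Perm MulAction
open Cfsg.Agent.Lib.HallSym.Basic Cfsg.Agent.Lib.HallSym.Class Cfsg.Agent.Lib.HallSym.AltExt
open Cfsg.Agent.Lib.HallSym.AltHall Cfsg.Agent.Lib.HallSym.Conj Cfsg.Agent.Lib.HallSym.Odd
open Cfsg.Agent.Lib.HallSym.ConjAlt Cfsg.Agent.Lib.HallSym.Coloring Cfsg.Agent.Lib.HallSym.NoPack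
open Cfsg.Agent.Lib.HallSym.ESwap

namespace Cfsg.Agent.Lib.HallSym.DPi

section general

variable {G : Type*} [Group G] [Finite G] {π : Set ℕ}

theorem isPi_bot : Cfsg.IsPiSubgroup π (⊥ : Subgroup G) := by
  intro p hp hd
  rw [Subgroup.card_bot] at hd
  exact absurd (Nat.dvd_one.1 hd) hp.one_lt.ne'

theorem exists_maximal_ge {X : Subgroup G} (hX : Cfsg.IsPiSubgroup π X) :
    ∃ M, X ≤ M ∧ Maximal (Cfsg.IsPiSubgroup π) M :=
  Finite.exists_le_maximal hX

theorem isPi_of_isPGroup {p : ℕ} (hp : p.Prime) (hpπ : p ∈ π) {P : Subgroup G} (hP : IsPGroup p P) :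
    Cfsg.IsPiSubgroup π P := by
  intro q hq hd
  haveI : Fact p.Prime := ⟨hp⟩
  obtain ⟨n, hn⟩ := IsPGroup.iff_card.1 hP
  rw [hn] at hd
  rw [(Nat.prime_dvd_prime_iff_eq hq hp).1 (hq.dvd_of_dvd_pow hd)]
  exact hpπ

theorem index_map_conj (M : Subgroup G) (g : G) :
    (M.map (MulAut.conj g).toMonoidHom).index = M.index :=
  Subgroup.index_map_equiv M (MulAut.conj g)

/-- A maximal `π`-subgroup of a `D_π`-group is a Hall subgroup. -/
theorem isPiHall_of_dpi (hD : Cfsg.IsDPiGroup π G) {M : Subgroup G}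
    (hM : Maximal (Cfsg.IsPiSubgroup π) M) : Cfsg.IsPiHall π M := by
  refine ⟨hM.prop, ?_⟩
  intro p hp hpπ hd
  haveI : Fact p.Prime := ⟨hp⟩
  obtain ⟨P⟩ : Nonempty (Sylow p G) := inferInstance
  have hPpi : Cfsg.IsPiSubgroup π (P : Subgroup G) := isPi_of_isPGroup hp hpπ P.isPGroup'
  obtain ⟨M', hPM', hM'⟩ := exists_maximal_ge hPpi
  obtain ⟨g, hg⟩ := hD M M' hM hM'
  have hidx : M'.index = M.index := by rw [hg]; exact index_map_conj M g
  have h1 : M'.index ∣ (P : Subgroup G).index := Subgroup.index_dvd_of_le hPM'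
  exact P.not_dvd_index ((hidx ▸ hd).trans h1)

/-- Sufficient condition: at most one prime. -/
theorem dpi_of_unique
    (h : ∀ r s : ℕ, r.Prime → s.Prime → r ∈ π → s ∈ π → r ∣ Nat.card G → s ∣ Nat.card G → r = s) :
    Cfsg.IsDPiGroup π G := by
  have hall : ∀ H : Subgroup G, Maximal (Cfsg.IsPiSubgroup π) H → Cfsg.IsPiHall π H := by
    intro H hH
    refine ⟨hH.prop, fun p hp hpπ hd => ?_⟩
    haveI : Fact p.Prime := ⟨hp⟩
    have hdG : p ∣ Nat.card G := dvd_card_of_dvd_index hd
    have hpg : IsPGroup p H := by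
      apply IsPGroup.of_card (n := (Nat.card H).primeFactorsList.length)
      apply Nat.eq_prime_pow_of_unique_prime_dvd Nat.card_pos.ne'
      intro q hq hqd
      exact h q p hq hp (hH.prop q hq hqd) hpπ (hqd.trans (Subgroup.card_subgroup_dvd_card H)) hdG
    obtain ⟨Q, hQ⟩ := hpg.exists_le_sylow
    have hQpi : Cfsg.IsPiSubgroup π (Q : Subgroup G) := isPi_of_isPGroup hp hpπ Q.isPGroup'
    have hQH : (Q : Subgroup G) ≤ H := hH.le_of_ge hQpi hQ
    have heq : H = Q := le_antisymm hQ hQH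
    rw [heq] at hd
    exact Q.not_dvd_index hd
  intro H K hH hK
  exact conj_of_unique_prime (hall H hH) (hall K hK) h

/-- Sufficient condition: all primes. -/
theorem dpi_of_all (h : ∀ r : ℕ, r.Prime → r ∣ Nat.card G → r ∈ π) : Cfsg.IsDPiGroup π G := by
  have hall : ∀ H : Subgroup G, Maximal (Cfsg.IsPiSubgroup π) H → H = ⊤ := by
    intro H hH
    have htop : Cfsg.IsPiSubgroup π (⊤ : Subgroup G) := by
      intro p hp hd
      exact h p hp (hd.trans (Subgroup.card_subgroup_dvd_card _))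
    exact top_le_iff.1 (hH.le_of_ge htop le_top)
  intro H K hH hK
  refine ⟨1, ?_⟩
  rw [hall H hH, hall K hK]
  ext x
  simp

end general

section combi

variable {α : Type*} [Fintype α] [DecidableEq α]

/-- Existence of a map with prescribed fibre sizes. -/
theorem exists_fn_sizes {ι : Type*} [Fintype ι] [DecidableEq ι] (s : ι → ℕ)
    (h : ∑ i, s i = Fintype.card α) : ∃ d : α → ι, ∀ i, Fintype.card {a // d a = i} = s i := by
  classical
  have hcard : Fintype.card α = Fintype.card (Σ i, Fin (s i)) := by simp [h]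
  let e := Fintype.equivOfCardEq hcard
  refine ⟨fun a => (e a).1, fun i => ?_⟩
  have e1 : {a // (e a).1 = i} ≃ {p : Σ i, Fin (s i) // p.1 = i} :=
    Equiv.subtypeEquiv e (fun a => Iff.rfl)
  have e2 : {p : Σ i, Fin (s i) // p.1 = i} ≃ Fin (s i) := Equiv.sigmaSubtype i
  rw [Fintype.card_congr (e1.trans e2), Fintype.card_fin]

theorem swap_pres {ι : Type*} (d : α → ι) {s t : α} (h : d s = d t) (x : α) : d (swap s t x) = d x := by
  by_cases h1 : x = s
  · subst h1; rw [swap_apply_left]; exact h.symm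
  by_cases h2 : x = t
  · subst h2; rw [swap_apply_right]; exact h
  rw [swap_apply_of_ne_of_ne h1 h2]

theorem swap_swap_pres {ι : Type*} (d : α → ι) {s t w w' : α} (h : d s = d t) (h' : d w = d w') (x : α) :
    d ((swap s t * swap w w') x) = d x := by
  rw [Perm.mul_apply, swap_pres d h, swap_pres d h']

theorem sign_swap_swap {s t w w' : α} (h : s ≠ t) (h' : w ≠ w') :
    Perm.sign (swap s t * swap w w') = 1 := by
  rw [map_mul, sign_swap h, sign_swap h']
  rfl

theorem exists_pair_of_card {ι : Type*} [DecidableEq ι] (d : α → ι) (i : ι) (h : 2 ≤ Fintype.card {a // d a = i}) :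
    ∃ w w', w ≠ w' ∧ d w = i ∧ d w' = i := by
  obtain ⟨⟨w, hw⟩, ⟨w', hw'⟩, hne⟩ := Fintype.exists_pair_of_one_lt_card (α := {a // d a = i}) h
  exact ⟨w, w', fun h => hne (Subtype.ext h), hw, hw'⟩

/-- All fibres of a permutation-invariant colouring: counting through a second map. -/
theorem card_comp_fiber (a : Fin 5 → Fin 4) (d : α → Fin 5) (j : Fin 4) :
    Fintype.card {x // a (d x) = j} = ∑ i : Fin 5, if a i = j then Fintype.card {x // d x = i} else 0 := by
  classical
  rw [Fintype.card_subtype]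
  rw [Finset.card_eq_sum_card_fiberwise (f := d) (t := Finset.univ) (fun x _ => Finset.mem_univ _)]
  apply Finset.sum_congr rfl
  intro i _
  rw [Fintype.card_subtype]
  split_ifs with hi
  · congr 1
    ext x
    simp only [Finset.mem_filter, Finset.mem_univ, true_and]
    constructor
    · rintro ⟨-, h⟩; exact h
    · intro h; exact ⟨by rw [h]; exact hi, h⟩
  · rw [Finset.card_eq_zero]
    ext x
    simp only [Finset.mem_filter, Finset.mem_univ, true_and, Finset.notMem_empty, iff_false]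
    rintro ⟨h1, h2⟩
    rw [h2] at h1
    exact hi h1

theorem color_of_fixed {c : α → Fin 4} {x : α} (h : c x = sw (c x)) : c x ≠ 0 ∧ c x ≠ 1 := by
  constructor
  · intro h0; rw [h0, sw_zero] at h; revert h; decide
  · intro h0; rw [h0, sw_one] at h; revert h; decide

/-- The big case. -/
theorem big_contra {c' : α → Fin 4} {d : α → Fin 5} {b K v : ℕ}
    (hb : 4 ≤ b) (hF0 : F c' 0 = b) (hF1 : F c' 1 = b) (hF2 : F c' 2 = K) (hF3 : F c' 3 = v)
    (hle : v ≤ K) (hs : K + v < 2 * b) (hv : 1 ≤ v → b < K + v)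
    (hd : ∀ i, Fintype.card {a // d a = i} = (![b - 1, b - 1, 2, K, v] : Fin 5 → ℕ) i)
    (hX : ∀ g : Perm α, (∀ x, d (g x) = d x) → Perm.sign g = 1 → g ∈ W c') : False := by
  classical
  have mono : ∀ s t, d s = d t → c' s = c' t := by
    intro s t hst
    by_contra hne
    have hst' : s ≠ t := fun h => hne (by rw [h])
    obtain ⟨i, hi, hi2⟩ : ∃ i : Fin 5, d s ≠ i ∧ 2 ≤ Fintype.card {a // d a = i} := by
      by_cases h0 : d s = 0
      · refine ⟨1, by rw [h0]; decide, ?_⟩
        rw [hd]; simp; omega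
      · refine ⟨0, h0, ?_⟩
        rw [hd]; simp; omega
    obtain ⟨w, w', hww, hw, hw'⟩ := exists_pair_of_card d i hi2
    have hg := hX (swap s t * swap w w') (swap_swap_pres d hst (hw.trans hw'.symm)) (sign_swap_swap hst' hww)
    have hsw : s ≠ w := fun h => hi (by rw [h, hw])
    have hsw' : s ≠ w' := fun h => hi (by rw [h, hw'])
    have htw : t ≠ w := fun h => hi (by rw [hst, h, hw])
    have htw' : t ≠ w' := fun h => hi (by rw [hst, h, hw'])
    have hgs : (swap s t * swap w w') s = t := by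
      rw [Perm.mul_apply, swap_apply_of_ne_of_ne hsw hsw', swap_apply_left]
    rcases hg with hg | hg
    · have := hg s
      rw [hgs] at this
      exact hne this.symm
    · -- the colours 0, 1 live on four points
      have hsub : (Finset.univ.filter (fun x => c' x = 0 ∨ c' x = 1)) ⊆ ({s, t, w, w'} : Finset α) := by
        intro x hx
        simp only [Finset.mem_filter, Finset.mem_univ, true_and] at hx
        by_contra hx'
        simp only [Finset.mem_insert, Finset.mem_singleton, not_or] at hx'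
        obtain ⟨h1, h2, h3, h4⟩ := hx'
        have hfix : (swap s t * swap w w') x = x := by
          rw [Perm.mul_apply, swap_apply_of_ne_of_ne h3 h4, swap_apply_of_ne_of_ne h1 h2]
        have h5 := hg x
        rw [hfix] at h5
        have h6 := color_of_fixed h5
        rcases hx with hx | hx
        · exact h6.1 hx
        · exact h6.2 hx
      have h7 := (Finset.card_le_card hsub).trans Finset.card_le_four
      have h8 : (Finset.univ.filter (fun x => c' x = 0 ∨ c' x = 1)).card = F c' 0 + F c' 1 := by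
        rw [Finset.filter_or, Finset.card_union_of_disjoint]
        · simp only [F, Fintype.card_subtype]
        · rw [Finset.disjoint_left]
          intro x hx hx'
          simp only [Finset.mem_filter, Finset.mem_univ, true_and] at hx hx'
          rw [hx] at hx'
          exact absurd hx' (by decide)
      omega
  -- factor `c'` through `d`
  let a : Fin 5 → Fin 4 := fun i => if h : ∃ x, d x = i then c' h.choose else 0
  have ha : ∀ x, c' x = a (d x) := by
    intro x
    have h : ∃ y, d y = d x := ⟨x, rfl⟩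
    simp only [a, dif_pos h]
    exact mono _ _ h.choose_spec.symm
  have hFa : ∀ j, F c' j = ∑ i : Fin 5, if a i = j then Fintype.card {x // d x = i} else 0 := by
    intro j
    rw [← card_comp_fiber]
    simp only [F]
    exact Fintype.card_congr (Equiv.subtypeEquivRight (fun x => by rw [ha x]))
  have e0 := hFa 0
  have e1 := hFa 1
  have e2 := hFa 2
  have e3 := hFa 3
  simp only [Fin.sum_univ_five, hd] at e0 e1 e2 e3
  simp only [Matrix.cons_val_zero, Matrix.cons_val_one, Matrix.cons_val] at e0 e1 e2 e3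
  rw [hF0] at e0
  rw [hF1] at e1
  rw [hF2] at e2
  rw [hF3] at e3
  exact no_pack hb hle hs hv (a 0) (a 1) (a 2) (a 3) (a 4) e0 e1 e2 e3

/-- The case of a fixed point. -/
theorem one_contra {c' : α → Fin 4} {d : α → Fin 5}
    (h0 : F c' 0 = 0) (h1 : F c' 1 = 0) (h3 : F c' 3 = 1)
    (hd0 : 2 ≤ Fintype.card {a // d a = 0}) (hd1 : 2 ≤ Fintype.card {a // d a = 1})
    (hd : ∀ i, i ≠ 0 → i ≠ 1 → Fintype.card {a // d a = i} = 0)
    (hX : ∀ g : Perm α, (∀ x, d (g x) = d x) → Perm.sign g = 1 → g ∈ W c') : False := by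
  classical
  obtain ⟨⟨a, ha⟩⟩ : Nonempty {a // c' a = 3} := by
    rw [← Fintype.card_pos_iff]
    have : F c' 3 = Fintype.card {a // c' a = 3} := rfl
    omega
  have hda : d a = 0 ∨ d a = 1 := by
    by_contra hcon
    push Not at hcon
    have := hd (d a) hcon.1 hcon.2
    have h5 : Nonempty {x // d x = d a} := ⟨⟨a, rfl⟩⟩
    have h6 := Fintype.card_pos (α := {x // d x = d a})
    omega
  obtain ⟨i, i', hi, hii, hi2, hi'2⟩ : ∃ i i' : Fin 5, d a = i ∧ i ≠ i' ∧
      2 ≤ Fintype.card {a // d a = i} ∧ 2 ≤ Fintype.card {a // d a = i'} := by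
    rcases hda with h | h
    · exact ⟨0, 1, h, by decide, hd0, hd1⟩
    · exact ⟨1, 0, h, by decide, hd1, hd0⟩
  obtain ⟨x, y, hxy, hx, hy⟩ := exists_pair_of_card d i' hi'2
  obtain ⟨b, hba, hb⟩ : ∃ b, b ≠ a ∧ d b = i := by
    obtain ⟨w, w', hww, hw, hw'⟩ := exists_pair_of_card d i hi2
    by_cases hwa : w = a
    · exact ⟨w', fun h => hww (hwa.trans h.symm), hw'⟩
    · exact ⟨w, hwa, hw⟩
  have hg := hX (swap a b * swap x y) (swap_swap_pres d (hi.trans hb.symm) (hx.trans hy.symm))
    (sign_swap_swap hba.symm hxy)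
  have hax : a ≠ x := fun h => hii (by rw [← hi, h, hx])
  have hay : a ≠ y := fun h => hii (by rw [← hi, h, hy])
  have hga : (swap a b * swap x y) a = b := by
    rw [Perm.mul_apply, swap_apply_of_ne_of_ne hax hay, swap_apply_left]
  have hcb : c' b = 3 := by
    rcases hg with hg | hg
    · have := hg a
      rw [hga, ha] at this
      exact this
    · have := hg a
      rw [hga, ha, sw_three] at this
      exact this
  have h7 : Fintype.card {a // c' a = 3} ≤ 1 := by
    have : F c' 3 = Fintype.card {a // c' a = 3} := rfl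
    omega
  have h8 := Fintype.card_le_one_iff.1 h7 ⟨a, ha⟩ ⟨b, hcb⟩
  exact hba (Subtype.ext_iff.1 h8).symm

/-- The case of two large colour classes. -/
theorem two_contra {c' d : α → Fin 4} {h K v r : ℕ} (h0 : F c' 0 = 0) (h1 : F c' 1 = 0)
    (hF2 : F c' 2 = K) (hF3 : F c' 3 = v) (hd0 : F d 0 = h) (hd1 : F d 1 = h) (hd2 : F d 2 = r)
    (hd3 : F d 3 = 0) (hr : r ≤ 1) (hh : 2 ≤ h)
    (hX : ∀ g : Perm α, g ∈ W d → Perm.sign g = 1 → g ∈ W c')
    (hv : 2 ≤ v) (hKv : v ≤ K) : False := by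
  classical
  have hsum1 := sum_F c'
  have hsum2 := sum_F d
  have hnot : ∀ x, c' x ≠ 0 ∧ c' x ≠ 1 := fun x => ⟨not_color_of_F_zero h0 x, not_color_of_F_zero h1 x⟩
  have hpres : ∀ g : Perm α, g ∈ W d → Perm.sign g = 1 → ∀ x, c' (g x) = c' x := by
    intro g hg hsg x
    rcases hX g hg hsg with h3 | h3
    · exact h3 x
    · rw [h3 x]
      have h4 := hnot x
      generalize c' x = j at h4
      revert h4 j
      decide
  have hpair : ∀ i : Fin 4, F d i = h → ∃ w w', w ≠ w' ∧ d w = i ∧ d w' = i := by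
    intro i hi
    exact exists_pair_of_card d i (by rw [show Fintype.card {a // d a = i} = F d i from rfl, hi]; exact hh)
  -- inside a block
  have hblock : ∀ i i' : Fin 4, F d i' = h → i ≠ i' → ∀ s t, d s = i → d t = i → c' s = c' t := by
    intro i i' hi' hne s t hs ht
    by_cases hst : s = t
    · rw [hst]
    obtain ⟨w, w', hww, hw, hw'⟩ := hpair i' hi'
    have hsw : s ≠ w := fun hh => hne (by rw [← hs, hh, hw])
    have hsw' : s ≠ w' := fun hh => hne (by rw [← hs, hh, hw'])
    have hgs : (swap s t * swap w w') s = t := by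
      rw [Perm.mul_apply, swap_apply_of_ne_of_ne hsw hsw', swap_apply_left]
    have hg := hpres (swap s t * swap w w')
      (Or.inl (swap_swap_pres d (hs.trans ht.symm) (hw.trans hw'.symm)))
      (sign_swap_swap hst hww) s
    rw [hgs] at hg
    exact hg.symm
  obtain ⟨τ, hτ⟩ := exists_sw_of_F_eq (c := d) (hd0.trans hd1.symm)
  obtain ⟨x, y, hxy, hx, hy⟩ := hpair 0 hd0
  obtain ⟨τ', hτ', hτs⟩ : ∃ τ' : Perm α, (∀ z, d (τ' z) = sw (d z)) ∧ Perm.sign τ' = 1 := by
    rcases Int.units_eq_one_or (Perm.sign τ) with hs | hs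
    · exact ⟨τ, hτ, hs⟩
    · refine ⟨τ * swap x y, fun z => ?_, ?_⟩
      · rw [Perm.mul_apply, hτ, swap_pres d (hx.trans hy.symm)]
      · rw [map_mul, hs, sign_swap hxy]; rfl
  have hcross : c' (τ' x) = c' x := hpres τ' (Or.inr hτ') hτs x
  have hτx : d (τ' x) = 1 := by rw [hτ', hx, sw_zero]
  have hall : ∀ z, d z = 0 ∨ d z = 1 → c' z = c' x := by
    intro z hz
    rcases hz with hz | hz
    · exact hblock 0 1 hd1 (by decide) z x hz hx
    · rw [← hcross]; exact hblock 1 0 hd0 (by decide) z (τ' x) hz hτx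
  have hsub : (Finset.univ.filter (fun z => d z = 0 ∨ d z = 1)) ⊆ Finset.univ.filter (fun z => c' z = c' x) := by
    intro z hz
    simp only [Finset.mem_filter, Finset.mem_univ, true_and] at hz ⊢
    exact hall z hz
  have h8 : (Finset.univ.filter (fun z => d z = 0 ∨ d z = 1)).card = F d 0 + F d 1 := by
    rw [Finset.filter_or, Finset.card_union_of_disjoint]
    · simp only [F, Fintype.card_subtype]
    · rw [Finset.disjoint_left]
      intro z hz hz'
      simp only [Finset.mem_filter, Finset.mem_univ, true_and] at hz hz'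
      rw [hz] at hz'
      exact absurd hz' (by decide)
  have hcard : 2 * h ≤ F c' (c' x) := by
    have h9 := Finset.card_le_card hsub
    rw [h8] at h9
    have h10 : F c' (c' x) = (Finset.univ.filter (fun z => c' z = c' x)).card := by
      simp only [F, Fintype.card_subtype]
    omega
  have hcol : c' x = 2 ∨ c' x = 3 := by
    have h4 := hnot x
    generalize c' x = j at h4
    revert h4 j
    decide
  rcases hcol with hc | hc
  · rw [hc, hF2] at hcard
    omega
  · rw [hc, hF3] at hcard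
    omega

end combi

section main

variable {α : Type*} [Fintype α] [DecidableEq α]

theorem isPi_subgroupOf {π : Set ℕ} {H : Subgroup (Perm α)}
    (h : ∀ r : ℕ, r.Prime → r ∣ Nat.card H → r ∈ π) :
    Cfsg.IsPiSubgroup π (H.subgroupOf (alternatingGroup α)) := by
  intro p hp hd
  have hcardinf : Nat.card (H.subgroupOf (alternatingGroup α)) =
      Nat.card (H ⊓ alternatingGroup α : Subgroup (Perm α)) := by
    rw [← Subgroup.subgroupOf_map_subtype H (alternatingGroup α)]
    exact (Subgroup.card_map_of_injective (Subgroup.subtype_injective _)).symm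
  rw [hcardinf] at hd
  exact h p hp (hd.trans (Subgroup.card_dvd_of_le inf_le_left))

theorem isPi_classPres {π : Set ℕ} {u : ℕ} (humin : ∀ r : ℕ, r.Prime → r < u → r ∈ π)
    {ι : Type*} [Fintype ι] [DecidableEq ι] (d : α → ι)
    (hd : ∀ i, Fintype.card {a // d a = i} < u) :
    ∀ r : ℕ, r.Prime → r ∣ Nat.card (classPres (Setoid.ker d)) → r ∈ π := by
  intro r hr h
  rw [card_classPres_ker] at h
  obtain ⟨i, -, hi⟩ := (Prime.dvd_finsetProd_iff (Nat.Prime.prime hr) _).1 h
  have hle := (Nat.Prime.dvd_factorial hr).1 hi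
  exact humin r hr (lt_of_le_of_lt hle (hd i))

theorem isPi_W {π : Set ℕ} {u : ℕ} (h2 : 2 ∈ π) (humin : ∀ r : ℕ, r.Prime → r < u → r ∈ π)
    (d : α → Fin 4) (hd : ∀ i, F d i < u) :
    ∀ r : ℕ, r.Prime → r ∣ Nat.card (W d) → r ∈ π := by
  intro r hr h
  rcases prime_of_dvd_card_W d hr h with h3 | ⟨i, hi⟩
  · rw [h3]; exact h2
  · exact humin r hr (lt_of_le_of_lt hi (hd i))

/-- Conjugates of `W c`: every `π`-subgroup lies in some `W c'`. -/
theorem key_conj {π : Set ℕ} (hD : Cfsg.IsDPiGroup π ↥(alternatingGroup α))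
    {M : Subgroup ↥(alternatingGroup α)} (hM : Maximal (Cfsg.IsPiSubgroup π) M) {c : α → Fin 4}
    (hMc : M = (W c).subgroupOf (alternatingGroup α)) (X : Subgroup ↥(alternatingGroup α))
    (hX : Cfsg.IsPiSubgroup π X) :
    ∃ c' : α → Fin 4, (∀ i, F c' i = F c i) ∧ ∀ x ∈ X, (x : Perm α) ∈ W c' := by
  obtain ⟨M', hXM', hM'⟩ := exists_maximal_ge hX
  obtain ⟨g, hg⟩ := hD M M' hM hM'
  refine ⟨fun a => c ((g : Perm α)⁻¹ a), ?_, ?_⟩
  · intro i
    simp only [F]
    exact Fintype.card_congr (Equiv.subtypeEquiv ((g : Perm α)⁻¹) (fun a => Iff.rfl))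
  · intro x hx
    have h1 : x ∈ M' := hXM' hx
    rw [hg] at h1
    obtain ⟨y, hy, rfl⟩ := h1
    have h2 : (y : Perm α) ∈ W c := by
      rw [hMc] at hy
      exact hy
    rw [W_conj (g := (g : Perm α)) (c := c) (fun z => by simp)]
    exact ⟨y.1, h2, rfl⟩

/-- The heart of the matter. -/
theorem not_dpi {π : Set ℕ} (hD : Cfsg.IsDPiGroup π ↥(alternatingGroup α))
    (hn : 5 ≤ Fintype.card α) {r s t : ℕ} (hr : r.Prime) (hs : s.Prime) (ht : t.Prime)
    (hrπ : r ∈ π) (hsπ : s ∈ π) (hrs : r ≠ s) (hrd : r ∣ Nat.card ↥(alternatingGroup α))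
    (hsd : s ∣ Nat.card ↥(alternatingGroup α)) (htd : t ∣ Nat.card ↥(alternatingGroup α))
    (htπ : t ∉ π) : False := by
  classical
  obtain ⟨M, -, hM⟩ := exists_maximal_ge (isPi_bot (G := ↥(alternatingGroup α)) (π := π))
  have hH := isPiHall_of_dpi hD hM
  obtain ⟨M₀, hM₀, hMeq, -⟩ := exists_lift hH
  have hrn := prime_le_of_dvd_card_alt hr hrd
  have hsn := prime_le_of_dvd_card_alt hs hsd
  have hodd : ∃ q₁ q₂ : ℕ, q₁.Prime ∧ q₂.Prime ∧ q₁ < q₂ ∧ q₁ ∈ π ∧ q₂ ∈ π ∧ q₂ ≤ Fintype.card α := by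
    rcases lt_or_gt_of_ne hrs with hlt | hlt
    · exact ⟨r, s, hr, hs, hlt, hrπ, hsπ, hsn⟩
    · exact ⟨s, r, hs, hr, hlt, hsπ, hrπ, hrn⟩
  obtain ⟨q₁, q₂, hq₁, hq₂, hlt, h₁, h₂, hq₂n⟩ := hodd
  have h2 : 2 ∈ π := two_mem_of_two_primes hM₀.1 hM₀.2 hq₁ hq₂ hlt h₁ h₂ hq₂n
  have hq₂2 : q₂ ≠ 2 := by
    have := hq₁.two_le
    omega
  have h3 : 3 ∈ π := three_mem_sym hM₀.1 hM₀.2 h2 hq₂ hq₂2 h₂ hq₂n
  have hU' : ∃ u : ℕ, u.Prime ∧ u ∉ π := ⟨t, ht, htπ⟩
  set u := Nat.find hU' with hu
  obtain ⟨hup, huπ⟩ : u.Prime ∧ u ∉ π := Nat.find_spec hU'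
  have humin : ∀ r : ℕ, r.Prime → r < u → r ∈ π := by
    intro r hr hlt
    by_contra hcon
    exact Nat.find_min hU' hlt ⟨hr, hcon⟩
  have hun : u ≤ Fintype.card α :=
    (Nat.find_min' hU' ⟨ht, htπ⟩).trans (prime_le_of_dvd_card_alt ht htd)
  have hu5 : 5 ≤ u := by
    by_contra hcon
    have h4 : u ≤ 4 := by omega
    have hu2 := hup.two_le
    have hu4 : u ≠ 4 := fun h => by rw [h] at hup; exact absurd hup (by norm_num)
    have hu2' : u ≠ 2 := fun h => huπ (by rw [h]; exact h2)
    have hu3' : u ≠ 3 := fun h => huπ (by rw [h]; exact h3)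
    omega
  set e := Nat.log 2 (u - 1) with he
  have hu2 := hup.two_le
  have hb1 : 2 ^ e < u := by
    have h9 : 2 ^ e ≤ u - 1 := Nat.pow_log_le_self 2 (x := u - 1) (by omega)
    omega
  have hb2 : u ≤ 2 ^ (e + 1) := by
    have h9 : u - 1 < 2 ^ (e + 1) := Nat.lt_pow_succ_log_self (b := 2) (by norm_num) (u - 1)
    omega
  have hb4 : 4 ≤ 2 ^ e := by
    have h9 : 2 ≤ e := by
      by_contra hcon
      have h10 : e + 1 ≤ 2 := by omega
      have h11 : 2 ^ (e + 1) ≤ 2 ^ 2 := Nat.pow_le_pow_right (by norm_num) h10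
      omega
    calc 4 = 2 ^ 2 := by norm_num
      _ ≤ 2 ^ e := Nat.pow_le_pow_right (by norm_num) h9
  obtain ⟨c, hc, a1, a2, -, a4, a5, a6, a7⟩ := exists_coloring hM₀.1 hM₀.2 h2 h3 hup huπ humin hb1 hb2
  have hMW : M = (W c).subgroupOf (alternatingGroup α) := by rw [hMeq, hc]
  have hsum := sum_F c
  rcases a2 with hB | hB
  · -- no colours 0, 1
    have hv1 : 1 ≤ F c 3 := by omega
    by_cases hv2 : F c 3 = 1
    · -- a fixed point
      obtain ⟨d, hd⟩ := exists_fn_sizes (α := α) (![3, Fintype.card α - 3, 0, 0, 0] : Fin 5 → ℕ)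
        (by simp [Fin.sum_univ_five]; omega)
      have hX := isPi_subgroupOf (α := α) (isPi_classPres humin d (by
        intro i
        rw [hd]
        have h8 : ∀ j : Fin 5, (![3, Fintype.card α - 3, 0, 0, 0] : Fin 5 → ℕ) j < u := by
          intro j
          fin_cases j <;> simp <;> omega
        exact h8 i))
      obtain ⟨c', hc'F, hc'⟩ := key_conj hD hM hMW _ hX
      refine one_contra (c' := c') (d := d) (by rw [hc'F]; omega) (by rw [hc'F]; omega)
        (by rw [hc'F]; omega) (by rw [hd]; simp) (by rw [hd]; simp; omega) ?_ ?_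
      · intro i hi0 hi1
        rw [hd]
        have h8 : ∀ j : Fin 5, j ≠ 0 → j ≠ 1 → (![3, Fintype.card α - 3, 0, 0, 0] : Fin 5 → ℕ) j = 0 := by
          intro j hj0 hj1
          fin_cases j <;> simp at hj0 hj1 ⊢
        exact h8 i hi0 hi1
      · intro g hg hgs
        have hgA : g ∈ alternatingGroup α := by rwa [Perm.mem_alternatingGroup]
        exact hc' ⟨g, hgA⟩ hg
    · -- two big colours
      obtain ⟨d, hd⟩ := exists_fn_sizes (α := α)
        (![Fintype.card α / 2, Fintype.card α / 2, Fintype.card α % 2, 0] : Fin 4 → ℕ)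
        (by simp [Fin.sum_univ_four]; omega)
      have hdF : ∀ i, F d i = (![Fintype.card α / 2, Fintype.card α / 2, Fintype.card α % 2, 0] : Fin 4 → ℕ) i := hd
      have hX := isPi_subgroupOf (α := α) (isPi_W h2 humin d (by
        intro i
        rw [hdF]
        have h8 : ∀ j : Fin 4, (![Fintype.card α / 2, Fintype.card α / 2, Fintype.card α % 2, 0] : Fin 4 → ℕ) j < u := by
          intro j
          fin_cases j <;> simp <;> omega
        exact h8 i))
      obtain ⟨c', hc'F, hc'⟩ := key_conj hD hM hMW _ hX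
      refine two_contra (c' := c') (d := d) (h := Fintype.card α / 2) (K := F c 2) (v := F c 3)
        (r := Fintype.card α % 2) (by rw [hc'F]; omega) (by rw [hc'F]; omega)
        (hc'F 2) (hc'F 3) (hdF 0) (hdF 1) (hdF 2) (hdF 3) (by omega) (by omega) ?_ (by omega) a4
      intro g hg hgs
      have hgA : g ∈ alternatingGroup α := by rwa [Perm.mem_alternatingGroup]
      exact hc' ⟨g, hgA⟩ hg
  · -- the main case
    obtain ⟨d, hd⟩ := exists_fn_sizes (α := α) (![2 ^ e - 1, 2 ^ e - 1, 2, F c 2, F c 3] : Fin 5 → ℕ)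
      (by simp [Fin.sum_univ_five]; omega)
    have hX := isPi_subgroupOf (α := α) (isPi_classPres humin d (by
      intro i
      rw [hd]
      have h8 : ∀ j : Fin 5, (![2 ^ e - 1, 2 ^ e - 1, 2, F c 2, F c 3] : Fin 5 → ℕ) j < u := by
        intro j
        fin_cases j <;> simp <;> omega
      exact h8 i))
    obtain ⟨c', hc'F, hc'⟩ := key_conj hD hM hMW _ hX
    have hpow : 2 ^ (e + 1) = 2 * 2 ^ e := by rw [pow_succ]; ring
    refine big_contra (c' := c') (d := d) (b := 2 ^ e) (K := F c 2) (v := F c 3) hb4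
      (by rw [hc'F]; omega) (by rw [hc'F]; omega) (hc'F 2) (hc'F 3) a4 (by omega) (fun h => ?_) hd ?_
    · have := a6 h
      omega
    · intro g hg hgs
      have hgA : g ∈ alternatingGroup α := by rwa [Perm.mem_alternatingGroup]
      exact hc' ⟨g, hgA⟩ hg

/-- The characterization of the `D_π` property in alternating groups. -/
theorem dpi_alt_iff (hn : 5 ≤ Fintype.card α) (π : Set ℕ) :
    Cfsg.IsDPiGroup π ↥(alternatingGroup α) ↔
      ((∀ r s : ℕ, r.Prime → s.Prime → r ∈ π → s ∈ π → r ∣ Nat.card ↥(alternatingGroup α) →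
          s ∣ Nat.card ↥(alternatingGroup α) → r = s) ∨
        ∀ r : ℕ, r.Prime → r ∣ Nat.card ↥(alternatingGroup α) → r ∈ π) := by
  constructor
  · intro hD
    by_contra hcon
    push Not at hcon
    obtain ⟨⟨r, s, hr, hs, hrπ, hsπ, hrd, hsd, hrs⟩, ⟨t, ht, htd, htπ⟩⟩ := hcon
    exact not_dpi hD hn hr hs ht hrπ hsπ hrs hrd hsd htd htπ
  · rintro (h | h)
    · exact dpi_of_unique h
    · exact dpi_of_all h

end main

end Cfsg.Agent.Lib.HallSym.DPi
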