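import Cfsg.Agent.Lib.HallSym.AltHall

/-!
# The relation defined by the transpositions of a subgroup of a symmetric group

For a Hall subgroup `M` of `Sym(α)` with `2 ∈ π`: structure of the orbits in terms of the classes of the relation
"`x = y` or `swap x y ∈ M`".
-/

set_option autoImplicit false
set_option linter.unusedSectionVars false

open Equiv Equiv.Perm MulAction
open Cfsg.Agent.Lib.HallSym.Basic Cfsg.Agent.Lib.HallSym.Class Cfsg.Agent.Lib.HallSym.Odd

namespace Cfsg.Agent.Lib.HallSym.ESwap

variable {α : Type*} [Fintype α] [DecidableEq α]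

theorem swap_conj (g : Perm α) (x y : α) : g * swap x y * g⁻¹ = swap (g x) (g y) :=
  (swap_apply_apply g x y).symm

/-- The setoid of a subgroup: `x ~ y` iff `x = y` or `swap x y` is in the subgroup. -/
def eS (M : Subgroup (Perm α)) : Setoid α where
  r x y := x = y ∨ swap x y ∈ M
  iseqv :=
    { refl := fun _ => Or.inl rfl
      symm := by
        rintro x y (rfl | h)
        · exact Or.inl rfl
        · exact Or.inr (by rwa [swap_comm])
      trans := by
        rintro x y z (rfl | h1) (rfl | h2)
        · exact Or.inl rfl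
        · exact Or.inr h2
        · exact Or.inr h1
        · by_cases hxz : x = z
          · exact Or.inl hxz
          by_cases hxy : x = y
          · subst hxy
            exact Or.inr h2
          by_cases hyz : y = z
          · subst hyz
            exact Or.inr h1
          right
          have := swap_conj (swap y z) x y
          rw [swap_apply_of_ne_of_ne hxy hxz, swap_apply_left] at this
          rw [← this, swap_inv]
          exact M.mul_mem (M.mul_mem h2 h1) h2 }

variable {M : Subgroup (Perm α)}

theorem eS_r {x y : α} : (eS M).r x y ↔ x = y ∨ swap x y ∈ M := Iff.rfl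

theorem eS_invariant {g : Perm α} (hg : g ∈ M) {x y : α} (h : (eS M).r x y) :
    (eS M).r (g x) (g y) := by
  rcases h with rfl | h
  · exact Or.inl rfl
  · right
    rw [← swap_conj]
    exact M.mul_mem (M.mul_mem hg h) (M.inv_mem hg)

/-- The class-preserving permutations lie in `M`. -/
theorem classPres_eS_le : classPres (eS M) ≤ M := by
  intro h hh
  induction hn : h.support.card using Nat.strong_induction_on generalizing h with
  | _ n ih =>
    by_cases h1 : h = 1
    · rw [h1]; exact M.one_mem
    obtain ⟨x, hx⟩ : ∃ x, h x ≠ x := by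
      by_contra hcon
      push Not at hcon
      exact h1 (Equiv.ext hcon)
    have hsw : swap x (h x) ∈ M := by
      have h2 : (eS M).r x (h x) := (eS M).iseqv.symm (hh x)
      exact h2.resolve_left hx.symm
    have hlt := Perm.card_support_swap_mul hx
    have hmem : swap x (h x) * h ∈ classPres (eS M) := by
      refine (classPres (eS M)).mul_mem ?_ hh
      intro t
      by_cases t1 : t = x
      · rw [t1, swap_apply_left]
        exact (eS M).iseqv.symm (hh x) |> (eS M).iseqv.symm
      by_cases t2 : t = h x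
      · rw [t2, swap_apply_right]
        exact (eS M).iseqv.symm (hh x)
      · rw [swap_apply_of_ne_of_ne t1 t2]
    have hlt' : (swap x (h x) * h).support.card < n := by omega
    have h3 := ih _ hlt' hmem rfl
    have h4 : h = swap x (h x) * (swap x (h x) * h) := by
      rw [← mul_assoc, swap_mul_self, one_mul]
    rw [h4]
    exact M.mul_mem hsw h3

/-- A class of `eS M` lies in the orbit. -/
theorem classF_eS_subset_orbit (a : α) : classF (eS M) a ⊆ classF (orbS M) a := by
  intro y hy
  rcases mem_classF.1 hy with rfl | h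
  · exact self_mem_classF _ _
  · exact mem_classF.2 ⟨swap y a, h, swap_apply_right y a⟩

/-- The image of a class by an element of `M` is a class. -/
theorem classF_image {g : Perm α} (hg : g ∈ M) (a : α) :
    (classF (eS M) a).image g = classF (eS M) (g a) := by
  ext y
  simp only [Finset.mem_image, mem_classF]
  constructor
  · rintro ⟨x, hx, rfl⟩
    exact eS_invariant hg hx
  · intro h
    refine ⟨g⁻¹ y, ?_, by simp⟩
    have := eS_invariant (M.inv_mem hg) h
    simpa using this

/-- All classes in an orbit have the same size. -/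
theorem card_classF_eq_of_orbit {a b : α} (h : (orbS M).r b a) :
    (classF (eS M) b).card = (classF (eS M) a).card := by
  obtain ⟨g, hg, rfl⟩ := h
  rw [← classF_image hg, Finset.card_image_of_injective _ g.injective]

/-- A finite set which is a union of classes of the same size has size divisible by that size. -/
theorem dvd_card_of_union_classes (s : Setoid α) (Y : Finset α) {d : ℕ}
    (h1 : ∀ y ∈ Y, classF s y ⊆ Y) (h2 : ∀ y ∈ Y, (classF s y).card = d) : d ∣ Y.card := by
  classical
  rw [Finset.card_eq_sum_card_image (Quotient.mk s) Y]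
  apply Finset.dvd_sum
  intro q hq
  obtain ⟨y, hy, rfl⟩ := Finset.mem_image.1 hq
  have : Y.filter (fun z => (Quotient.mk s z) = Quotient.mk s y) = classF s y := by
    ext z
    simp only [Finset.mem_filter, mem_classF]
    constructor
    · rintro ⟨_, hz⟩
      exact Quotient.eq.1 hz
    · intro hz
      exact ⟨h1 y hy (mem_classF.2 hz), Quotient.eq.2 hz⟩
  rw [this, h2 y hy]

section Hall

variable {π : Set ℕ}

/-- For a point in an orbit with at least two points, its class has at least two points (`2 ∈ π`). -/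
theorem two_le_class (hi : ∀ p : ℕ, p.Prime → p ∈ π → ¬ p ∣ M.index) (h2 : 2 ∈ π) {a : α}
    (ha : 2 ≤ (classF (orbS M) a).card) : 2 ≤ (classF (eS M) a).card := by
  classical
  have hW : M ≤ classPres (orbS M) := le_classPres_orbS M
  have hi1 : ¬ 2 ∣ M.relIndex (classPres (orbS M)) := fun h =>
    hi 2 Nat.prime_two h2 (h.trans (relIndex_dvd_index_of_le hW))
  obtain ⟨u, hu, v, hv, huv⟩ := Finset.one_lt_card.1 (by omega : 1 < (classF (orbS M) a).card)
  have hz : (swap u v).support ⊆ classF (orbS M) a := by
    intro t ht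
    rw [Perm.mem_support] at ht
    by_cases t1 : t = u
    · rw [t1]; exact hu
    by_cases t2 : t = v
    · rw [t2]; exact hv
    · exact absurd (swap_apply_of_ne_of_ne t1 t2) ht
  have h2F : Fact (Nat.Prime 2) := ⟨Nat.prime_two⟩
  have hpow : (swap u v) ^ 2 ^ 1 = 1 := by
    rw [pow_one, pow_two, swap_mul_self]
  obtain ⟨w, hw, hwz⟩ := exists_conj_mem_of_pow_eq_one (mem_classPres_of_support_subset hz) hpow hi1
  have hwz' : swap (w⁻¹ u) (w⁻¹ v) ∈ M := by
    have := swap_conj w⁻¹ u v
    rw [inv_inv] at this
    rwa [← this]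
  have hu' : (orbS M).r (w⁻¹ u) a :=
    (orbS M).iseqv.trans ((classPres (orbS M)).inv_mem hw u) (mem_classF.1 hu)
  obtain ⟨m, hm, hma⟩ := (orbS M).iseqv.symm hu'
  have huvne : w⁻¹ u ≠ w⁻¹ v := fun h => huv (w⁻¹.injective h)
  have hsw : swap a (m (w⁻¹ v)) ∈ M := by
    have := swap_conj m (w⁻¹ u) (w⁻¹ v)
    rw [hma] at this
    rw [← this]
    exact M.mul_mem (M.mul_mem hm hwz') (M.inv_mem hm)
  have hne : a ≠ m (w⁻¹ v) := by
    intro h
    rw [← hma] at h
    exact huvne (m.injective h)
  rw [show 2 = ({a, m (w⁻¹ v)} : Finset α).card from (Finset.card_pair hne).symm]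
  apply Finset.card_le_card
  intro t ht
  simp only [Finset.mem_insert, Finset.mem_singleton] at ht
  rcases ht with rfl | rfl
  · exact self_mem_classF _ _
  · exact mem_classF.2 (Or.inr (by rwa [swap_comm]))

/-- The key block lemma: a prime power `p ^ f` (`p ∈ π`) strictly between the class size and the size of
the orbit is a multiple of the class size. -/
theorem dvd_pow_of_lt {a : α} (hi : ∀ p : ℕ, p.Prime → p ∈ π → ¬ p ∣ M.index) {p f : ℕ} (hp : p.Prime)
    (hpπ : p ∈ π) (hf : f ≠ 0) (hlt : (classF (eS M) a).card < p ^ f)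
    (hle : p ^ f ≤ (classF (orbS M) a).card) : (classF (eS M) a).card ∣ p ^ f := by
  classical
  have hW : M ≤ classPres (orbS M) := le_classPres_orbS M
  have hi1 : ¬ p ∣ M.relIndex (classPres (orbS M)) := fun h =>
    hi p hp hpπ (h.trans (relIndex_dvd_index_of_le hW))
  have h2pf : 2 ≤ p ^ f := by
    calc 2 ≤ p := hp.two_le
      _ ≤ p ^ f := Nat.le_self_pow hf p
  obtain ⟨z₀, hz₀, hz₀k, hz₀O⟩ := exists_cycle_support (classF (orbS M) a) h2pf hle
  obtain ⟨z, hzM, hzc, hzk, hzO⟩ := exists_cycle_in_class (s := orbS M) (M := M)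
    (W := classPres (orbS M)) le_rfl hp hi1 hz₀ hz₀k (mem_classPres_of_support_subset hz₀O) hz₀O
  -- classes of points of the support lie in the support
  have hclass : ∀ b ∈ z.support, classF (eS M) b ⊆ z.support := by
    intro b hb
    by_contra hcon
    obtain ⟨c, hc, hcz⟩ := Finset.not_subset.1 hcon
    have hzc1 : z c = c := by simpa using hcz
    have hcb : (eS M).r c b := mem_classF.1 hc
    have hzb : (eS M).r (z b) b := by
      have h1 := eS_invariant hzM hcb
      rw [hzc1] at h1
      exact (eS M).iseqv.trans ((eS M).iseqv.symm h1) hcb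
    have hpowb : ∀ i : ℕ, (eS M).r ((z ^ i) b) b := by
      intro i
      induction i with
      | zero => exact (eS M).iseqv.refl b
      | succ i ih =>
        rw [pow_succ', Perm.mul_apply]
        exact (eS M).iseqv.trans (eS_invariant hzM ih) hzb
    have hsub : z.support ⊆ classF (eS M) b := by
      intro t ht
      obtain ⟨i, hi⟩ := hzc.exists_pow_eq (Perm.mem_support.1 hb) (Perm.mem_support.1 ht)
      rw [← hi]
      exact mem_classF.2 (hpowb i)
    have hcardle := Finset.card_le_card hsub
    rw [hzk] at hcardle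
    have hbO : (orbS M).r b a := mem_classF.1 (hzO hb)
    rw [card_classF_eq_of_orbit hbO] at hcardle
    omega
  have hd := dvd_card_of_union_classes (eS M) z.support (d := (classF (eS M) a).card) hclass
    (fun y hy => card_classF_eq_of_orbit (mem_classF.1 (hzO hy)))
  rwa [hzk] at hd

/-- The classes divide the orbit: `|O| = m * d`. -/
theorem class_dvd_orbit (a : α) : (classF (eS M) a).card ∣ (classF (orbS M) a).card := by
  apply dvd_card_of_union_classes (eS M) (classF (orbS M) a)
  · intro y hy
    have h1 := classF_eS_subset_orbit (M := M) y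
    rwa [classF_eq (mem_classF.1 hy)] at h1
  · intro y hy
    exact card_classF_eq_of_orbit (mem_classF.1 hy)

/-- A cycle in `M` with support in the class of a point gives a prime in `π`. -/
theorem prime_mem_of_le_class (hπ : ∀ p : ℕ, p.Prime → p ∣ Nat.card M → p ∈ π) {a : α} {r : ℕ}
    (hr : r.Prime) (hle : r ≤ (classF (eS M) a).card) : r ∈ π := by
  obtain ⟨z, hz, hzk, hzs⟩ := exists_cycle_support (classF (eS M) a) hr.two_le hle
  have hzM : z ∈ M := classPres_eS_le (mem_classPres_of_support_subset hzs)
  apply hπ r hr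
  have := orderOf_dvd_card_of_mem hzM
  rwa [hz.orderOf, hzk] at this

/-- Existence of a power of a prime in `(d, p d]`. -/
theorem exists_pow_between {p d : ℕ} (hp : p.Prime) (hd : d ≠ 0) :
    ∃ f : ℕ, f ≠ 0 ∧ d < p ^ f ∧ p ^ f ≤ p * d := by
  refine ⟨Nat.log p d + 1, Nat.succ_ne_zero _, Nat.lt_pow_succ_log_self hp.one_lt d, ?_⟩
  rw [pow_succ, mul_comm]
  exact Nat.mul_le_mul_left p (Nat.pow_log_le_self p hd)

/-- If the orbit is bigger than the class, the class size is a power of 2. -/
theorem class_two_pow (hi : ∀ p : ℕ, p.Prime → p ∈ π → ¬ p ∣ M.index) (h2 : 2 ∈ π) {a : α}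
    (hne : (classF (orbS M) a).card ≠ (classF (eS M) a).card) :
    ∃ e : ℕ, (classF (eS M) a).card = 2 ^ e := by
  obtain ⟨m, hm⟩ := class_dvd_orbit (M := M) a
  have hdpos : 0 < (classF (eS M) a).card := Finset.card_pos.2 ⟨a, self_mem_classF _ _⟩
  have hOpos : 0 < (classF (orbS M) a).card := Finset.card_pos.2 ⟨a, self_mem_classF _ _⟩
  have hm2 : 2 ≤ m := by
    by_contra hcon
    have hcon' : m = 0 ∨ m = 1 := by omega
    rcases hcon' with rfl | rfl
    · rw [Nat.mul_zero] at hm; omega
    · rw [Nat.mul_one] at hm; exact hne hm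
  obtain ⟨f, hf, h1, h3⟩ := exists_pow_between Nat.prime_two hdpos.ne'
  have hle : 2 ^ f ≤ (classF (orbS M) a).card := by
    rw [hm, mul_comm]
    exact h3.trans (Nat.mul_le_mul_right _ hm2)
  have := dvd_pow_of_lt hi Nat.prime_two h2 hf h1 hle
  obtain ⟨e, -, he⟩ := (Nat.dvd_prime_pow Nat.prime_two).1 this
  exact ⟨e, he⟩

/-- A prime in `π` at most the orbit size is at most the class size, if the orbit is bigger than the class. -/
theorem prime_le_class (hi : ∀ p : ℕ, p.Prime → p ∈ π → ¬ p ∣ M.index) (h2 : 2 ∈ π) {a : α}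
    (hne : (classF (orbS M) a).card ≠ (classF (eS M) a).card) {q : ℕ} (hq : q.Prime) (hqπ : q ∈ π)
    (hqO : q ≤ (classF (orbS M) a).card) : q ≤ (classF (eS M) a).card := by
  by_contra hlt
  push Not at hlt
  have h1 := dvd_pow_of_lt hi hq hqπ one_ne_zero (by rwa [pow_one]) (by rwa [pow_one])
  rw [pow_one] at h1
  obtain ⟨m, hm⟩ := class_dvd_orbit (M := M) a
  have hdpos : 0 < (classF (eS M) a).card := Finset.card_pos.2 ⟨a, self_mem_classF _ _⟩
  have hO2 : 2 ≤ (classF (orbS M) a).card := by
    have := hq.two_le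
    omega
  have h3 := two_le_class hi h2 hO2
  rcases (Nat.dvd_prime hq).1 h1 with h4 | h4 <;> omega

/-- `3 ∈ π` as soon as `2` and an odd prime at most the degree lie in `π`. -/
theorem three_mem_sym (hπ : ∀ p : ℕ, p.Prime → p ∣ Nat.card M → p ∈ π)
    (hi : ∀ p : ℕ, p.Prime → p ∈ π → ¬ p ∣ M.index) (h2 : 2 ∈ π) {q : ℕ} (hq : q.Prime) (hq2 : q ≠ 2)
    (hqπ : q ∈ π) (hqn : q ≤ Fintype.card α) : 3 ∈ π := by
  classical
  obtain ⟨y, hyM, hyc, hyk⟩ := exists_cycle_mem hq (hi q hq hqπ) hqn
  obtain ⟨a, ha⟩ : y.support.Nonempty := by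
    rw [← Finset.card_pos, hyk]; exact hq.pos
  have hO : y.support ⊆ classF (orbS M) a := cycle_support_subset_orbit hyM hyc ha
  have hOcard : q ≤ (classF (orbS M) a).card := by
    have := Finset.card_le_card hO
    omega
  have hq3 : 3 ≤ q := by
    have := hq.two_le
    omega
  by_cases hne : (classF (orbS M) a).card = (classF (eS M) a).card
  · exact prime_mem_of_le_class hπ (a := a) Nat.prime_three (by omega)
  · have := prime_le_class hi h2 hne hq hqπ hOcard
    exact prime_mem_of_le_class hπ (a := a) Nat.prime_three (by omega)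

/-- The structure of an orbit with `2, 3 ∈ π`. -/
theorem orbit_type (hi : ∀ p : ℕ, p.Prime → p ∈ π → ¬ p ∣ M.index) (h2 : 2 ∈ π) (h3 : 3 ∈ π) {a : α}
    (hne : (classF (orbS M) a).card ≠ (classF (eS M) a).card) :
    (classF (orbS M) a).card = 2 * (classF (eS M) a).card ∧ 4 ≤ (classF (eS M) a).card ∧
      (∃ e : ℕ, (classF (eS M) a).card = 2 ^ e) := by
  obtain ⟨e, he⟩ := class_two_pow hi h2 hne
  obtain ⟨m, hm⟩ := class_dvd_orbit (M := M) a
  have hdpos : 0 < (classF (eS M) a).card := Finset.card_pos.2 ⟨a, self_mem_classF _ _⟩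
  have hOpos : 0 < (classF (orbS M) a).card := Finset.card_pos.2 ⟨a, self_mem_classF _ _⟩
  have hm2 : 2 ≤ m := by
    by_contra hcon
    have hcon' : m = 0 ∨ m = 1 := by omega
    rcases hcon' with rfl | rfl
    · rw [Nat.mul_zero] at hm; omega
    · rw [Nat.mul_one] at hm; exact hne hm
  have hd2 : 2 ≤ (classF (eS M) a).card := by
    apply two_le_class hi h2
    have : (classF (eS M) a).card * 2 ≤ (classF (orbS M) a).card := by
      rw [hm]; exact Nat.mul_le_mul_left _ hm2
    omega
  have hm3 : m < 3 := by
    by_contra hcon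
    push Not at hcon
    obtain ⟨f, hf, h4, h5⟩ := exists_pow_between Nat.prime_three hdpos.ne'
    have hle : 3 ^ f ≤ (classF (orbS M) a).card := by
      rw [hm, mul_comm]
      exact h5.trans (Nat.mul_le_mul_right _ hcon)
    have h6 := dvd_pow_of_lt hi Nat.prime_three h3 hf h4 hle
    -- `2 ∣ d`
    have h7 : 2 ∣ (classF (eS M) a).card := by
      rw [he]
      have : e ≠ 0 := by
        intro h
        rw [h] at he
        simp at he
        omega
      exact dvd_pow_self 2 this
    have h8 := Nat.Prime.dvd_of_dvd_pow Nat.prime_two (h7.trans h6)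
    norm_num at h8
  have hm2' : m = 2 := by omega
  have hOd : (classF (orbS M) a).card = 2 * (classF (eS M) a).card := by
    rw [hm, hm2', mul_comm]
  refine ⟨hOd, ?_, e, he⟩
  have hq3 : 3 ≤ (classF (eS M) a).card := by
    apply prime_le_class hi h2 hne Nat.prime_three h3
    omega
  -- a power of 2 which is at least 3 is at least 4
  rw [he] at hq3 ⊢
  rcases e with _ | _ | e
  · norm_num at hq3
  · norm_num at hq3
  · rw [pow_succ, pow_succ]
    have : 1 ≤ 2 ^ e := Nat.one_le_two_pow
    omega

end Hall

end Cfsg.Agent.Lib.HallSym.ESwap
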