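import Cfsg.Agent.Lib.HallSym.Basic

/-!
# A Jordan-type lemma for a prime cycle together with a group fixing a point of its support

Let `c` be a cycle of prime length moving `p₀`, and `F` a group fixing `p₀`, acting transitively on a set `J`
with `|J| ≥ 2` and trivially off `J`, where `J` meets the support of `c`. Then `⟨c, F⟩` acts
2-transitively on `supp c ∪ J`.
-/

set_option autoImplicit false
set_option linter.unusedSectionVars false

open Equiv Equiv.Perm MulAction
open scoped Pointwise

namespace Cfsg.Agent.Lib.HallSym.JordanLite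

variable {α : Type*} [Fintype α] [DecidableEq α]

/-- The group generated by a permutation and a subgroup. -/
def gen (c : Perm α) (F : Subgroup (Perm α)) : Subgroup (Perm α) :=
  Subgroup.closure (insert c (F : Set (Perm α)))

theorem c_mem_gen (c : Perm α) (F : Subgroup (Perm α)) : c ∈ gen c F :=
  Subgroup.subset_closure (Set.mem_insert _ _)

theorem F_le_gen (c : Perm α) (F : Subgroup (Perm α)) : F ≤ gen c F := fun _ hf =>
  Subgroup.subset_closure (Set.mem_insert_of_mem _ hf)

/-- The group `gen c F` preserves `supp c ∪ J`. -/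
theorem gen_preserves (c : Perm α) (F : Subgroup (Perm α)) (J : Finset α)
    (hFJ : ∀ f ∈ F, ∀ x, x ∉ J → f x = x) :
    ∀ g ∈ gen c F, ∀ x, g x ∈ c.support ∪ J ↔ x ∈ c.support ∪ J := by
  have hFJ' : ∀ f ∈ F, ∀ x, f x ∈ J ↔ x ∈ J := by
    intro f hf x
    constructor
    · intro h
      by_contra hx
      rw [hFJ f hf x hx] at h
      exact hx h
    · intro h
      by_contra hx
      have := hFJ f hf (f x) hx
      have h2 : f x = x := f.injective this
      rw [h2] at hx
      exact hx h
  have hcS : ∀ x, c x ∈ c.support ↔ x ∈ c.support := fun x => by simp [Perm.apply_mem_support]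
  intro g hg
  induction hg using Subgroup.closure_induction with
  | mem g hg =>
    intro x
    rcases Set.mem_insert_iff.1 hg with rfl | hgF
    · by_cases hx : x ∈ g.support
      · exact ⟨fun _ => Finset.mem_union_left _ hx, fun _ => Finset.mem_union_left _ ((hcS x).2 hx)⟩
      · have : g x = x := by simpa using hx
        rw [this]
    · have h1 := hFJ' g hgF x
      by_cases hxJ : x ∈ J
      · exact ⟨fun _ => Finset.mem_union_right _ hxJ, fun _ => Finset.mem_union_right _ (h1.2 hxJ)⟩
      · have : g x = x := hFJ g hgF x hxJ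
        rw [this]
  | one => intro x; simp
  | mul g h _ _ hg hh =>
    intro x
    rw [Perm.mul_apply, hg, hh]
  | inv g _ hg =>
    intro x
    rw [← hg (g⁻¹ x)]
    simp

/-- The main result, in the form of moving two points. -/
theorem two_trans (c : Perm α) (F : Subgroup (Perm α)) (J : Finset α) {p₀ : α}
    (hc : c.IsCycle) (hq : c.support.card.Prime) (hp₀ : p₀ ∈ c.support)
    (hFp : ∀ f ∈ F, f p₀ = p₀) (hJ2 : 2 ≤ J.card) (hFJ : ∀ f ∈ F, ∀ x, x ∉ J → f x = x)
    (hFtr : ∀ a ∈ J, ∀ b ∈ J, ∃ f ∈ F, f a = b) (hover : ∃ w ∈ J, w ∈ c.support)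
    {a a' b b' : α} (ha : a ∈ c.support ∪ J) (ha' : a' ∈ c.support ∪ J) (hb : b ∈ c.support ∪ J)
    (hb' : b' ∈ c.support ∪ J) (haa' : a ≠ a') (hbb' : b ≠ b') :
    ∃ g ∈ gen c F, g a = b ∧ g a' = b' := by
  classical
  set T : Finset α := c.support ∪ J with hT
  set L : Subgroup (Perm α) := gen c F with hL
  -- `F` preserves `J`
  have hFJ' : ∀ f ∈ F, ∀ x, f x ∈ J ↔ x ∈ J := by
    intro f hf x
    constructor
    · intro h
      by_contra hx
      rw [hFJ f hf x hx] at h
      exact hx h
    · intro h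
      by_contra hx
      have := hFJ f hf (f x) hx
      have h2 : f x = x := f.injective this
      rw [h2] at hx
      exact hx h
  have hcS : ∀ x, c x ∈ c.support ↔ x ∈ c.support := fun x => by simp [Perm.apply_mem_support]
  -- `L` preserves `T`
  have hLT : ∀ g ∈ L, ∀ x, g x ∈ T ↔ x ∈ T := by
    intro g hg
    induction hg using Subgroup.closure_induction with
    | mem g hg =>
      intro x
      rcases Set.mem_insert_iff.1 hg with rfl | hgF
      · by_cases hx : x ∈ g.support
        · exact ⟨fun _ => Finset.mem_union_left _ hx, fun _ => Finset.mem_union_left _ ((hcS x).2 hx)⟩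
        · have : g x = x := by simpa using hx
          rw [this]
      · have h1 := hFJ' g hgF x
        by_cases hxJ : x ∈ J
        · exact ⟨fun _ => Finset.mem_union_right _ hxJ, fun _ => Finset.mem_union_right _ (h1.2 hxJ)⟩
        · have : g x = x := hFJ g hgF x hxJ
          rw [this]
    | one => intro x; simp
    | mul g h _ _ hg hh =>
      intro x
      rw [Perm.mul_apply, hg, hh]
    | inv g _ hg =>
      intro x
      rw [← hg (g⁻¹ x)]
      simp
  let G := ↥L
  let X : SubMulAction G α :=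
    { carrier := (T : Set α)
      smul_mem' := by
        intro g x hx
        exact (hLT g.1 g.2 x).2 hx }
  have hXmem : ∀ x : α, x ∈ X ↔ x ∈ T := fun _ => Iff.rfl
  have hsmul : ∀ (g : G) (x : X), ((g • x : X) : α) = (g : Perm α) x := fun _ _ => rfl
  have hp₀T : p₀ ∈ T := Finset.mem_union_left _ hp₀
  let P₀ : X := ⟨p₀, hp₀T⟩
  have hcL : c ∈ L := c_mem_gen c F
  have hFL : F ≤ L := F_le_gen c F
  have hcP : c p₀ ≠ p₀ := by simpa using hp₀
  -- transitivity: every point of `T` is `L`-conjugate to `p₀`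
  have hreach : ∀ t ∈ T, ∃ g ∈ L, g p₀ = t := by
    intro t ht
    have hsup : ∀ t ∈ c.support, ∃ g ∈ L, g p₀ = t := by
      intro t ht
      obtain ⟨i, hi⟩ := hc.exists_pow_eq hcP (by simpa using ht)
      exact ⟨c ^ i, L.pow_mem hcL i, hi⟩
    rcases Finset.mem_union.1 ht with h | h
    · exact hsup t h
    · obtain ⟨w, hwJ, hwc⟩ := hover
      obtain ⟨g, hg, hgw⟩ := hsup w hwc
      obtain ⟨f, hf, hfw⟩ := hFtr w hwJ t h
      exact ⟨f * g, L.mul_mem (hFL hf) hg, by rw [Perm.mul_apply, hgw, hfw]⟩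
  have htrans : IsPretransitive G X := by
    rw [isPretransitive_iff_base P₀]
    rintro ⟨t, ht⟩
    obtain ⟨g, hg, hgt⟩ := hreach t ht
    exact ⟨⟨g, hg⟩, Subtype.ext hgt⟩
  -- primitivity
  have hprim : IsPreprimitive G X := by
    refine IsPreprimitive.of_isTrivialBlock_base P₀ ?_
    intro B hP₀B hB
    by_cases hsub : B.Subsingleton
    · exact Or.inl hsub
    right
    obtain ⟨b₁, hb₁, hb₁ne⟩ : ∃ b₁ ∈ B, b₁ ≠ P₀ := by
      by_contra hcon
      push Not at hcon
      apply hsub
      intro u hu v hv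
      rw [hcon u hu, hcon v hv]
    -- the elements with `g • B = B`
    have hfix : ∀ (g : G), P₀ ∈ g • B → g • B = B := by
      intro g hg
      rcases hB.smul_eq_or_disjoint g with h | h
      · exact h
      · exact absurd hP₀B (Set.disjoint_left.1 h hg)
    have hgenF : ∀ f (hf : f ∈ F), (⟨f, hFL hf⟩ : G) • B = B := by
      intro f hf
      apply hfix
      rw [Set.mem_smul_set]
      refine ⟨P₀, hP₀B, Subtype.ext ?_⟩
      exact hFp f hf
    have hgenc : (⟨c, hcL⟩ : G) • B = B := by
      by_contra hne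
      have hdis : Disjoint ((⟨c, hcL⟩ : G) • B) B :=
        (hB.smul_eq_or_disjoint _).resolve_left hne
      -- all points of `B` are moved by `c`
      have hmoved : ∀ u ∈ B, c (u : α) ≠ u := by
        intro u hu h
        have : u ∈ (⟨c, hcL⟩ : G) • B := by
          rw [Set.mem_smul_set]
          exact ⟨u, hu, Subtype.ext h⟩
        exact Set.disjoint_left.1 hdis this hu
      obtain ⟨i, hi⟩ := hc.exists_pow_eq hcP (hmoved b₁ hb₁)
      have hpowB : (⟨c ^ i, L.pow_mem hcL i⟩ : G) • B = B := by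
        rcases hB.smul_eq_or_disjoint (⟨c ^ i, L.pow_mem hcL i⟩ : G) with h | h
        · exact h
        · exfalso
          have hmem : b₁ ∈ (⟨c ^ i, L.pow_mem hcL i⟩ : G) • B := by
            rw [Set.mem_smul_set]
            exact ⟨P₀, hP₀B, Subtype.ext hi⟩
          exact Set.disjoint_left.1 h hmem hb₁
      -- `c ^ i` generates
      have hordc : orderOf c = c.support.card := hc.orderOf
      have hcop : Nat.Coprime i c.support.card := by
        rw [Nat.coprime_comm, Nat.Prime.coprime_iff_not_dvd hq]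
        intro hdvd
        have h1 : c ^ i = 1 := by
          rw [← hordc] at hdvd
          exact orderOf_dvd_iff_pow_eq_one.1 hdvd
        rw [h1] at hi
        exact hb₁ne (Subtype.ext (show (b₁ : α) = p₀ by simpa using hi.symm))
      obtain ⟨j, hj⟩ := Nat.exists_mul_mod_eq_one_of_coprime hcop hq.one_lt
      have hcij : (c ^ i) ^ j = c := by
        rw [← pow_mul, ← pow_mod_orderOf, hordc, hj.2, pow_one]
      have hpowj : ∀ k : ℕ, ∃ h : (c ^ i) ^ k ∈ L, (⟨(c ^ i) ^ k, h⟩ : G) • B = B := by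
        intro k
        induction k with
        | zero =>
          refine ⟨by simp [L.one_mem], ?_⟩
          have : (⟨(c ^ i) ^ 0, by simp [L.one_mem]⟩ : G) = 1 := Subtype.ext (by simp)
          rw [this, one_smul]
        | succ k ih =>
          obtain ⟨h, hk⟩ := ih
          have hmemk : (c ^ i) ^ (k + 1) ∈ L := L.pow_mem (L.pow_mem hcL i) _
          refine ⟨hmemk, ?_⟩
          have : (⟨(c ^ i) ^ (k + 1), hmemk⟩ : G) =
              (⟨(c ^ i) ^ k, h⟩ : G) * (⟨c ^ i, L.pow_mem hcL i⟩ : G) :=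
            Subtype.ext (by simp [pow_succ])
          rw [this, mul_smul, hpowB, hk]
      obtain ⟨h, hk⟩ := hpowj j
      apply hne
      have : (⟨c, hcL⟩ : G) = ⟨(c ^ i) ^ j, h⟩ := Subtype.ext hcij.symm
      rw [this, hk]
    -- all of `L` fixes `B`
    have hall : ∀ g (hg : g ∈ L), (⟨g, hg⟩ : G) • B = B := by
      intro g hg
      induction hg using Subgroup.closure_induction with
      | mem g hg =>
        rcases Set.mem_insert_iff.1 hg with rfl | hgF
        · exact hgenc
        · exact hgenF g hgF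
      | one =>
        have : (⟨1, L.one_mem⟩ : G) = 1 := rfl
        rw [this, one_smul]
      | mul g h hg' hh' hg hh =>
        have : (⟨g * h, L.mul_mem hg' hh'⟩ : G) = (⟨g, hg'⟩ : G) * (⟨h, hh'⟩ : G) := rfl
        rw [this, mul_smul, hh, hg]
      | inv g hg' hg =>
        have : (⟨g⁻¹, L.inv_mem hg'⟩ : G) = (⟨g, hg'⟩ : G)⁻¹ := rfl
        rw [this, inv_smul_eq_iff, hg]
    apply Set.eq_univ_of_forall
    rintro ⟨t, ht⟩
    obtain ⟨g, hg, hgt⟩ := hreach t ht
    rw [← hall g hg, Set.mem_smul_set]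
    exact ⟨P₀, hP₀B, Subtype.ext hgt⟩
  -- the Jordan set
  let J' : Set X := {x | (x : α) ∈ J}
  have hJT : ∀ x ∈ J, x ∈ T := fun x hx => Finset.mem_union_right _ hx
  have hp₀J : p₀ ∉ J := by
    intro hp
    obtain ⟨u, v, huv⟩ : ∃ u v, u ∈ J ∧ v ∈ J ∧ u ≠ v := by
      obtain ⟨u, hu, v, hv, hne⟩ := Finset.one_lt_card.1 (by omega : 1 < J.card)
      exact ⟨u, v, hu, hv, hne⟩
    obtain ⟨f, hf, hfu⟩ := hFtr p₀ hp u huv.1
    obtain ⟨f', hf', hfv⟩ := hFtr p₀ hp v huv.2.1
    rw [hFp f hf] at hfu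
    rw [hFp f' hf'] at hfv
    exact huv.2.2 (hfu.symm.trans hfv)
  have hscard : (J'ᶜ).ncard ≠ 0 :=
    ((Set.ncard_pos (Set.toFinite _)).2 ⟨P₀, hp₀J⟩).ne'
  obtain ⟨n, hn⟩ := Nat.exists_eq_succ_of_ne_zero hscard
  have hJ'2 : 2 ≤ J'.ncard := by
    obtain ⟨u, hu, v, hv, hne⟩ := Finset.one_lt_card.1 (by omega : 1 < J.card)
    have : 1 < J'.ncard := by
      rw [Set.one_lt_ncard (Set.toFinite _)]
      refine ⟨⟨u, hJT u hu⟩, hu, ⟨v, hJT v hv⟩, hv, ?_⟩
      intro h
      exact hne (congrArg Subtype.val h)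
    omega
  have hcardX : n + 2 < Nat.card X := by
    have := Set.ncard_add_ncard_compl J'
    omega
  have htr' : IsPretransitive (fixingSubgroup G J'ᶜ) (SubMulAction.ofFixingSubgroup G J'ᶜ) := by
    refine ⟨?_⟩
    rintro ⟨x, hx⟩ ⟨y, hy⟩
    have hx' : (x : α) ∈ J := by
      rw [SubMulAction.mem_ofFixingSubgroup_iff] at hx
      by_contra h
      exact hx h
    have hy' : (y : α) ∈ J := by
      rw [SubMulAction.mem_ofFixingSubgroup_iff] at hy
      by_contra h
      exact hy h
    obtain ⟨f, hf, hfxy⟩ := hFtr _ hx' _ hy'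
    refine ⟨⟨⟨f, hFL hf⟩, ?_⟩, ?_⟩
    · rw [mem_fixingSubgroup_iff]
      rintro ⟨z, hzT⟩ hz
      apply Subtype.ext
      exact hFJ f hf z hz
    · apply Subtype.ext
      apply Subtype.ext
      exact hfxy
  have h2 := hprim.is_two_pretransitive (s := J'ᶜ) hn hcardX htr'
  rw [is_two_pretransitive_iff] at h2
  have haa : (⟨a, ha⟩ : X) ≠ ⟨a', ha'⟩ := fun h => haa' (congrArg Subtype.val h)
  have hbb : (⟨b, hb⟩ : X) ≠ ⟨b', hb'⟩ := fun h => hbb' (congrArg Subtype.val h)
  obtain ⟨g, hg1, hg2⟩ := h2 haa hbb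
  exact ⟨g.1, g.2, congrArg Subtype.val hg1, congrArg Subtype.val hg2⟩

end Cfsg.Agent.Lib.HallSym.JordanLite
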