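import Cfsg.Agent.Lib.HallSym.Class

/-!
# A Hall subgroup of a symmetric group involving two primes has even order
-/

set_option autoImplicit false
set_option linter.unusedSectionVars false

open Equiv Equiv.Perm MulAction
open Cfsg.Agent.Lib.HallSym.Basic Cfsg.Agent.Lib.HallSym.Class Cfsg.Agent.Lib.HallSym.JordanLite

namespace Cfsg.Agent.Lib.HallSym.Odd

variable {α : Type*} [Fintype α] [DecidableEq α]

theorem zpowers_fix {x : Perm α} {t : α} (ht : t ∉ x.support) : ∀ f ∈ Subgroup.zpowers x, f t = t := by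
  rintro f ⟨i, rfl⟩
  have : x t = t := by simpa using ht
  exact Perm.zpow_apply_eq_self_of_apply_eq_self this i

/-- A `q`-cycle in `M`, from Hall's index condition. -/
theorem exists_cycle_mem {M : Subgroup (Perm α)} {q : ℕ} (hq : q.Prime) (hi : ¬ q ∣ M.index)
    (hqn : q ≤ Fintype.card α) : ∃ y ∈ M, y.IsCycle ∧ y.support.card = q := by
  obtain ⟨z, hz, hzk, -⟩ := exists_cycle_support (Finset.univ : Finset α) hq.two_le (by simpa using hqn)
  have hq' : Fact q.Prime := ⟨hq⟩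
  have hpow : z ^ q ^ 1 = 1 := by
    rw [pow_one, ← hzk]; exact IsCycle_pow_card hz
  have hi' : ¬ q ∣ M.relIndex ⊤ := by simpa using hi
  obtain ⟨w, -, hwz⟩ := exists_conj_mem_of_pow_eq_one (W := ⊤) (Subgroup.mem_top z) hpow hi'
  refine ⟨_, hwz, ?_, ?_⟩
  · have := hz.conj (g := w⁻¹)
    simpa using this
  · have : w⁻¹ * z * w = w⁻¹ * z * (w⁻¹)⁻¹ := by simp
    rw [this, Perm.support_conj]
    simpa using hzk

/-- The support of an element of `M` lies in the orbit of a moved point, if it is a cycle. -/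
theorem cycle_support_subset_orbit {M : Subgroup (Perm α)} {y : Perm α} (hyM : y ∈ M) (hy : y.IsCycle)
    {a : α} (ha : a ∈ y.support) : y.support ⊆ classF (orbS M) a := by
  intro t ht
  obtain ⟨i, hi⟩ := hy.exists_pow_eq (by simpa using ha) (by simpa using ht)
  exact mem_classF.2 ⟨y ^ i, M.pow_mem hyM i, hi⟩

/-- Hall subgroups of `Sym(α)` involving two primes `≤ |α|` have even order (`2 ∈ π`). -/
theorem two_mem_of_two_primes {π : Set ℕ} {M : Subgroup (Perm α)}
    (hπ : ∀ p : ℕ, p.Prime → p ∣ Nat.card M → p ∈ π) (hi : ∀ p : ℕ, p.Prime → p ∈ π → ¬ p ∣ M.index)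
    {q₁ q₂ : ℕ} (hq₁ : q₁.Prime) (hq₂ : q₂.Prime) (hlt : q₁ < q₂) (h₁ : q₁ ∈ π) (h₂ : q₂ ∈ π)
    (hn : q₂ ≤ Fintype.card α) : 2 ∈ π := by
  classical
  obtain ⟨y, hyM, hyc, hyk⟩ := exists_cycle_mem hq₂ (hi q₂ hq₂ h₂) hn
  obtain ⟨a, ha⟩ : y.support.Nonempty := by
    rw [← Finset.card_pos, hyk]; exact hq₂.pos
  have hO : y.support ⊆ classF (orbS M) a := cycle_support_subset_orbit hyM hyc ha
  have hOcard : q₁ ≤ (classF (orbS M) a).card := by
    have := Finset.card_le_card hO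
    omega
  obtain ⟨x₀, hx₀, hx₀k, hx₀O⟩ := exists_cycle_support (classF (orbS M) a) hq₁.two_le hOcard
  have hW : M ≤ classPres (orbS M) := le_classPres_orbS M
  have hi1 : ¬ q₁ ∣ M.relIndex (classPres (orbS M)) := fun h =>
    hi q₁ hq₁ h₁ (h.trans (relIndex_dvd_index_of_le hW))
  obtain ⟨x, hxM, hxc, hxk, hxO⟩ := exists_cycle_in_class (s := orbS M) (M := M) (W := classPres (orbS M))
    le_rfl hq₁ hi1 (k := 1) hx₀ (by rw [hx₀k, pow_one]) (mem_classPres_of_support_subset hx₀O) hx₀O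
  rw [pow_one] at hxk
  obtain ⟨e, he⟩ : x.support.Nonempty := by
    rw [← Finset.card_pos, hxk]; exact hq₁.pos
  obtain ⟨m, hm, hma⟩ := mem_classF.1 (hxO he)
  -- move `x` so that it moves `a`
  set x' : Perm α := m⁻¹ * x * (m⁻¹)⁻¹ with hx'
  have hx'M : x' ∈ M := by
    rw [hx']; exact M.mul_mem (M.mul_mem (M.inv_mem hm) hxM) (M.inv_mem (M.inv_mem hm))
  have hx'c : x'.IsCycle := hxc.conj
  have hx'supp : x'.support = x.support.map (m⁻¹ : Perm α).toEmbedding := Perm.support_conj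
  have hx'k : x'.support.card = q₁ := by
    rw [hx'supp, Finset.card_map, hxk]
  have hax' : a ∈ x'.support := by
    rw [hx'supp]
    refine Finset.mem_map.2 ⟨e, he, ?_⟩
    simp [← hma]
  obtain ⟨p₀, hp₀, hp₀x⟩ := Finset.exists_mem_notMem_of_card_lt_card (s := x'.support) (t := y.support)
    (by omega)
  have hcard : 2 ≤ x'.support.card := by rw [hx'k]; exact hq₁.two_le
  have hap₀ : a ≠ p₀ := fun h => hp₀x (h ▸ hax')
  obtain ⟨g, hg, hg1, hg2⟩ := two_trans y (Subgroup.zpowers x') x'.support (p₀ := p₀) hyc (by rw [hyk]; exact hq₂)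
    hp₀ (zpowers_fix hp₀x) hcard (fun f hf t ht => zpowers_fix ht f hf)
    (by
      intro u hu v hv
      obtain ⟨i, hi⟩ := hx'c.exists_pow_eq (by simpa using hu) (by simpa using hv)
      exact ⟨x' ^ i, Subgroup.npow_mem_zpowers _ _, hi⟩)
    ⟨a, hax', ha⟩ (a := a) (a' := p₀) (b := p₀) (b' := a)
    (Finset.mem_union_right _ hax') (Finset.mem_union_left _ hp₀)
    (Finset.mem_union_left _ hp₀) (Finset.mem_union_right _ hax') hap₀ hap₀.symm
  have hgenM : gen y (Subgroup.zpowers x') ≤ M := by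
    rw [gen, Subgroup.closure_le]
    rintro u hu
    rcases Set.mem_insert_iff.1 hu with rfl | hu
    · exact hyM
    · exact (Subgroup.zpowers_le.2 hx'M) hu
  have h2 : 2 ∣ orderOf g := two_dvd_orderOf_of_swap hap₀ hg1 hg2
  exact hπ 2 Nat.prime_two (h2.trans (orderOf_dvd_card_of_mem (hgenM hg)))

end Cfsg.Agent.Lib.HallSym.Odd
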