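import Cfsg.Agent.Lib.HallSym.Coloring

/-!
# The structure of Hall subgroups of symmetric groups, `2, 3 ∈ π`, `u ∉ π`
-/

set_option autoImplicit false
set_option linter.unusedSectionVars false

open Equiv Equiv.Perm MulAction
open Cfsg.Agent.Lib.HallSym.Basic Cfsg.Agent.Lib.HallSym.Class Cfsg.Agent.Lib.HallSym.AltExt
open Cfsg.Agent.Lib.HallSym.ESwap Cfsg.Agent.Lib.HallSym.Coloring

namespace Cfsg.Agent.Lib.HallSym.Struct

variable {α : Type*} [Fintype α] [DecidableEq α]

/-- The binomial coefficient of two invariant disjoint sets divides the index. -/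
theorem choose_dvd_index {M : Subgroup (Perm α)} {S₁ S₂ : Finset α} (hd : Disjoint S₁ S₂)
    (h1 : ∀ g ∈ M, ∀ x ∈ S₁, g x ∈ S₁) (h2 : ∀ g ∈ M, ∀ x ∈ S₂, g x ∈ S₂) :
    (S₁.card + S₂.card).choose S₁.card ∣ M.index := by
  classical
  let col : α → Fin 3 := fun x => if x ∈ S₁ then 0 else if x ∈ S₂ then 1 else 2
  have h1' : ∀ g ∈ M, ∀ x, g x ∈ S₁ ↔ x ∈ S₁ := by
    intro g hg x
    refine ⟨fun h => ?_, h1 g hg x⟩
    have := h1 g⁻¹ (M.inv_mem hg) _ h
    simpa using this
  have h2' : ∀ g ∈ M, ∀ x, g x ∈ S₂ ↔ x ∈ S₂ := by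
    intro g hg x
    refine ⟨fun h => ?_, h2 g hg x⟩
    have := h2 g⁻¹ (M.inv_mem hg) _ h
    simpa using this
  have hMX : M ≤ classPres (Setoid.ker col) := by
    intro g hg x
    show col (g x) = col x
    simp only [col, h1' g hg x, h2' g hg x]
  have hS : ∀ x, x ∈ S₁ → x ∉ S₂ := fun x h1 h2 => Finset.disjoint_left.1 hd h1 h2
  have f0 : Fintype.card {a // col a = 0} = S₁.card := by
    rw [Fintype.card_subtype]
    congr 1
    ext x
    by_cases h : x ∈ S₁ <;> by_cases h' : x ∈ S₂ <;> simp [col, h, h']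
  have f1 : Fintype.card {a // col a = 1} = S₂.card := by
    rw [Fintype.card_subtype]
    congr 1
    ext x
    by_cases h : x ∈ S₁
    · have := hS x h
      simp [col, h, this]
    · by_cases h' : x ∈ S₂ <;> simp [col, h, h']
  have f2 : Fintype.card {a // col a = 2} = ((S₁ ∪ S₂)ᶜ).card := by
    rw [Fintype.card_subtype]
    congr 1
    ext x
    by_cases h : x ∈ S₁ <;> by_cases h' : x ∈ S₂ <;> simp [col, h, h']
  set r := ((S₁ ∪ S₂)ᶜ).card with hr
  have hn : S₁.card + S₂.card + r = Fintype.card α := by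
    rw [hr, Finset.card_compl, Finset.card_union_of_disjoint hd]
    have := Finset.card_le_univ (S₁ ∪ S₂)
    rw [Finset.card_union_of_disjoint hd] at this
    omega
  set X := classPres (Setoid.ker col) with hX
  have hcardX : Nat.card X = S₁.card.factorial * S₂.card.factorial * r.factorial := by
    rw [hX, card_classPres_ker, Fin.prod_univ_three, f0, f1, f2]
  have hidx := Subgroup.card_mul_index X
  rw [hcardX, Nat.card_perm, Nat.card_eq_fintype_card, ← hn] at hidx
  set C := (S₁.card + S₂.card).choose S₁.card with hC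
  set C₂ := (S₁.card + S₂.card + r).choose (S₁.card + S₂.card) with hC₂
  have h3 : C * S₁.card.factorial * S₂.card.factorial = (S₁.card + S₂.card).factorial := by
    have := Nat.choose_mul_factorial_mul_factorial (Nat.le_add_right S₁.card S₂.card)
    rwa [Nat.add_sub_cancel_left] at this
  have h4 : C₂ * (S₁.card + S₂.card).factorial * r.factorial = (S₁.card + S₂.card + r).factorial := by
    have := Nat.choose_mul_factorial_mul_factorial (Nat.le_add_right (S₁.card + S₂.card) r)
    rwa [Nat.add_sub_cancel_left] at this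
  have hpos : 0 < S₁.card.factorial * S₂.card.factorial * r.factorial :=
    Nat.mul_pos (Nat.mul_pos (Nat.factorial_pos _) (Nat.factorial_pos _)) (Nat.factorial_pos _)
  have h5 : X.index = C₂ * C := by
    apply Nat.eq_of_mul_eq_mul_left hpos
    rw [hidx, ← h4, ← h3]
    ring
  have h6 : X.index ∣ M.index := Subgroup.index_dvd_of_le hMX
  rw [h5] at h6
  exact (Dvd.intro_left C₂ rfl).trans h6

/-- Carries: `2` divides the binomial coefficient if the sum passes a power of 2. -/
theorem two_dvd_choose_of_carry {s t f : ℕ} (hs : s < 2 ^ f) (ht : t < 2 ^ f) (h : 2 ^ f ≤ s + t) :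
    2 ∣ (s + t).choose s := by
  classical
  have hF : Fact (Nat.Prime 2) := ⟨Nat.prime_two⟩
  have hf : f ≠ 0 := by
    intro hf
    rw [hf] at hs ht h
    simp at hs ht h
    omega
  have hval := padicValNat_choose (p := 2) (n := s + t) (k := s) (b := Nat.log 2 (s + t) + 1)
    (Nat.le_add_right s t) (Nat.lt_succ_self _)
  have hmem : f ∈ (Finset.Ico 1 (Nat.log 2 (s + t) + 1)).filter
      (fun i => 2 ^ i ≤ s % 2 ^ i + (s + t - s) % 2 ^ i) := by
    rw [Finset.mem_filter, Finset.mem_Ico]
    refine ⟨⟨Nat.pos_of_ne_zero hf, Nat.lt_succ_of_le (Nat.le_log_of_pow_le (by norm_num) h)⟩, ?_⟩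
    rw [Nat.add_sub_cancel_left, Nat.mod_eq_of_lt hs, Nat.mod_eq_of_lt ht]
    exact h
  have hpos : 1 ≤ padicValNat 2 ((s + t).choose s) := by
    rw [hval]
    exact Finset.card_pos.2 ⟨f, hmem⟩
  exact dvd_of_one_le_padicValNat hpos

section Main

variable {π : Set ℕ} {M : Subgroup (Perm α)}

/-- The orbit of `a` is larger than its class. -/
def big (M : Subgroup (Perm α)) (a : α) : Prop :=
  (classF (orbS M) a).card ≠ (classF (eS M) a).card

theorem big_iff_of_orbit {a y : α} (h : (orbS M).r y a) : big M y ↔ big M a := by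
  unfold big
  rw [classF_eq h, card_classF_eq_of_orbit h]

theorem orbit_invariant {a x : α} {g : Perm α} (hg : g ∈ M) (hx : x ∈ classF (orbS M) a) :
    g x ∈ classF (orbS M) a := by
  exact mem_classF.2 ((orbS M).iseqv.trans ⟨g, hg, rfl⟩ (mem_classF.1 hx))

theorem disjoint_orbits {x y : α} (h : ¬ (orbS M).r x y) :
    Disjoint (classF (orbS M) x) (classF (orbS M) y) := by
  rw [Finset.disjoint_left]
  intro t h1 h2
  exact h ((orbS M).iseqv.trans ((orbS M).iseqv.symm (mem_classF.1 h1)) (mem_classF.1 h2))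

/-- Numeric consequences of two distinct orbits. -/
theorem pair_carry (hi : ∀ p : ℕ, p.Prime → p ∈ π → ¬ p ∣ M.index) (h2 : 2 ∈ π) {x y : α}
    (h : ¬ (orbS M).r x y) {f : ℕ} (hs : (classF (orbS M) x).card < 2 ^ f)
    (ht : (classF (orbS M) y).card < 2 ^ f) :
    ¬ 2 ^ f ≤ (classF (orbS M) x).card + (classF (orbS M) y).card := by
  intro hle
  have hd := choose_dvd_index (disjoint_orbits h) (fun g hg t ht => orbit_invariant hg ht)
    (fun g hg t ht => orbit_invariant hg ht)
  exact hi 2 Nat.prime_two h2 ((two_dvd_choose_of_carry hs ht hle).trans hd)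

theorem pair_sum (hi : ∀ p : ℕ, p.Prime → p ∈ π → ¬ p ∣ M.index) {u : ℕ}
    (humin : ∀ r : ℕ, r.Prime → r < u → r ∈ π) {x y : α} (h : ¬ (orbS M).r x y) :
    u ≤ (classF (orbS M) x).card + (classF (orbS M) y).card := by
  by_contra hlt
  push Not at hlt
  have hd := choose_dvd_index (disjoint_orbits h) (fun g hg t ht => orbit_invariant hg ht)
    (fun g hg t ht => orbit_invariant hg ht)
  set s := (classF (orbS M) x).card with hs
  set t := (classF (orbS M) y).card with ht
  have hspos : 0 < s := Finset.card_pos.2 ⟨x, self_mem_classF _ _⟩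
  have htpos : 0 < t := Finset.card_pos.2 ⟨y, self_mem_classF _ _⟩
  have hC : (s + t).choose s ≠ 1 := by
    obtain ⟨s', hs'⟩ := Nat.exists_eq_succ_of_ne_zero hspos.ne'
    obtain ⟨t', ht'⟩ := Nat.exists_eq_succ_of_ne_zero htpos.ne'
    have h1 : 0 < (s' + t' + 1).choose s' := Nat.choose_pos (by omega)
    have h2 : 0 < (s' + t' + 1).choose (s' + 1) := Nat.choose_pos (by omega)
    have h3 : (s + t).choose s = (s' + t' + 1).choose s' + (s' + t' + 1).choose (s' + 1) := by
      rw [hs', ht', show s'.succ + t'.succ = (s' + t' + 1) + 1 by omega]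
      exact Nat.choose_succ_succ _ _
    rw [h3]
    omega
  obtain ⟨r, hr, hrd⟩ := Nat.exists_prime_and_dvd hC
  have hrle : r ≤ s + t := by
    have h3 : r ∣ (s + t).factorial := by
      have := Nat.choose_mul_factorial_mul_factorial (Nat.le_add_right s t)
      rw [Nat.add_sub_cancel_left] at this
      rw [← this]
      exact (hrd.trans (Dvd.intro _ rfl)).trans (Dvd.intro _ rfl)
    exact (Nat.Prime.dvd_factorial hr).1 h3
  exact hi r hr (humin r hr (by omega)) (hrd.trans hd)

variable (hπ : ∀ p : ℕ, p.Prime → p ∣ Nat.card M → p ∈ π)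
  (hi : ∀ p : ℕ, p.Prime → p ∈ π → ¬ p ∣ M.index) (h2 : 2 ∈ π) (h3 : 3 ∈ π)
  {u e : ℕ} (hu : u.Prime) (huπ : u ∉ π) (humin : ∀ r : ℕ, r.Prime → r < u → r ∈ π)
  (hb1 : 2 ^ e < u) (hb2 : u ≤ 2 ^ (e + 1))

include hπ hi h2 h3 hu huπ humin hb1 hb2 in
/-- Sizes for the big orbits. -/
theorem big_card {a : α} (h : big M a) :
    (classF (eS M) a).card = 2 ^ e ∧ (classF (orbS M) a).card = 2 ^ (e + 1) := by
  obtain ⟨hOd, h4, e', he'⟩ := orbit_type hi h2 h3 h
  have hdu : (classF (eS M) a).card < u := by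
    by_contra hcon
    push Not at hcon
    exact huπ (prime_mem_of_le_class hπ hu hcon)
  obtain ⟨q₀, hq₀, h5, h6⟩ := Nat.exists_prime_lt_and_le_two_mul (classF (eS M) a).card (by omega)
  have hq₀π : q₀ ∉ π := by
    intro hq
    have := prime_le_class hi h2 h hq₀ hq (by omega)
    omega
  have huq : u ≤ q₀ := by
    by_contra hcon
    push Not at hcon
    exact hq₀π (humin q₀ hq₀ hcon)
  have h7 : 2 ^ e' < 2 ^ (e + 1) := by
    rw [← he']; omega
  have h8 : 2 ^ e < 2 ^ (e' + 1) := by
    rw [pow_succ, ← he']; omega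
  have h9 : e' < e + 1 := (Nat.pow_lt_pow_iff_right (by norm_num)).1 h7
  have h10 : e < e' + 1 := (Nat.pow_lt_pow_iff_right (by norm_num)).1 h8
  have h11 : e' = e := by omega
  rw [h11] at he'
  refine ⟨he', ?_⟩
  rw [hOd, he', pow_succ]; ring

include hπ huπ hu in
theorem small_lt {a : α} (h : ¬ big M a) : (classF (orbS M) a).card < u := by
  by_contra hcon
  push Not at hcon
  unfold big at h
  push Not at h
  rw [h] at hcon
  exact huπ (prime_mem_of_le_class hπ hu hcon)

include hπ hi h2 h3 hu huπ humin hb1 hb2 in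
theorem one_big {x y : α} (hx : big M x) (hy : big M y) : (orbS M).r x y := by
  by_contra h
  have h1 := (big_card hπ hi h2 h3 hu huπ humin hb1 hb2 hx).2
  have h4 := (big_card hπ hi h2 h3 hu huπ humin hb1 hb2 hy).2
  have hp : 2 ^ (e + 1) < 2 ^ (e + 2) := Nat.pow_lt_pow_right (by norm_num) (by omega)
  have h5 : 2 ^ (e + 2) = 2 ^ (e + 1) + 2 ^ (e + 1) := by
    rw [pow_succ 2 (e + 1)]; ring
  exact pair_carry hi h2 h (f := e + 2) (by omega) (by omega) (by omega)

include hπ hi h2 hu huπ humin hb1 hb2 in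
theorem small_pair {x y : α} (hx : ¬ big M x) (hy : ¬ big M y) (h : ¬ (orbS M).r x y) :
    (2 ^ e ≤ (classF (orbS M) x).card ∧ (classF (orbS M) y).card < 2 ^ e) ∨
      ((classF (orbS M) x).card < 2 ^ e ∧ 2 ^ e ≤ (classF (orbS M) y).card) := by
  have h4 := small_lt hπ hu huπ hx
  have h5 := small_lt hπ hu huπ hy
  have h6 := pair_sum hi humin h
  by_cases h7 : 2 ^ e ≤ (classF (orbS M) x).card
  · left
    refine ⟨h7, ?_⟩
    by_contra h8
    push Not at h8
    have h9 : 2 ^ (e + 1) = 2 ^ e + 2 ^ e := by rw [pow_succ]; ring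
    exact pair_carry hi h2 h (f := e + 1) (by omega) (by omega) (by omega)
  · right
    push Not at h7
    refine ⟨h7, ?_⟩
    by_contra h8
    push Not at h8
    exact pair_carry hi h2 h (f := e) h7 h8 (by omega)

include hπ hi h2 hu huπ humin hb1 hb2 in
theorem no_three {x y z : α} (hx : ¬ big M x) (hy : ¬ big M y) (hz : ¬ big M z)
    (hxy : ¬ (orbS M).r x y) (hxz : ¬ (orbS M).r x z) (hyz : ¬ (orbS M).r y z) : False := by
  have h4 := small_pair hπ hi h2 hu huπ humin hb1 hb2 hx hy hxy
  have h5 := small_pair hπ hi h2 hu huπ humin hb1 hb2 hx hz hxz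
  have h6 := small_pair hπ hi h2 hu huπ humin hb1 hb2 hy hz hyz
  omega

include hπ hi h2 hu huπ humin hb1 hb2 in
/-- The small orbits: at most two. -/
theorem exists_small_orbits : ∃ S₁ S₂ : Finset α, (∀ x, (x ∈ S₁ ∨ x ∈ S₂) ↔ ¬ big M x) ∧ Disjoint S₁ S₂ ∧
    (∀ x ∈ S₁, classF (orbS M) x = S₁) ∧ (∀ x ∈ S₂, classF (orbS M) x = S₂) ∧ S₂.card ≤ S₁.card ∧
    S₁.card < u ∧ (1 ≤ S₂.card → u ≤ S₁.card + S₂.card) ∧ S₁.card + S₂.card < 2 ^ (e + 1) := by
  classical
  by_cases h₀ : ∃ x₁, ¬ big M x₁
  · obtain ⟨x₁, hx₁⟩ := h₀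
    have hO₁ := small_lt hπ hu huπ hx₁
    by_cases h₁ : ∃ x₂, ¬ big M x₂ ∧ ¬ (orbS M).r x₂ x₁
    · obtain ⟨x₂, hx₂, hne⟩ := h₁
      have hO₂ := small_lt hπ hu huπ hx₂
      have hall : ∀ x, (x ∈ classF (orbS M) x₁ ∨ x ∈ classF (orbS M) x₂) ↔ ¬ big M x := by
        intro x
        constructor
        · rintro (h | h)
          · rwa [big_iff_of_orbit (mem_classF.1 h)]
          · rwa [big_iff_of_orbit (mem_classF.1 h)]
        · intro hx
          by_contra hcon
          push Not at hcon
          exact no_three hπ hi h2 hu huπ humin hb1 hb2 hx hx₁ hx₂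
            (fun h => hcon.1 (mem_classF.2 h)) (fun h => hcon.2 (mem_classF.2 h)) (fun h => hne ((orbS M).iseqv.symm h))
      have hdisj : Disjoint (classF (orbS M) x₁) (classF (orbS M) x₂) :=
        disjoint_orbits (fun h => hne ((orbS M).iseqv.symm h))
      have hself₁ : ∀ x ∈ classF (orbS M) x₁, classF (orbS M) x = classF (orbS M) x₁ :=
        fun x hx => classF_eq (mem_classF.1 hx)
      have hself₂ : ∀ x ∈ classF (orbS M) x₂, classF (orbS M) x = classF (orbS M) x₂ :=
        fun x hx => classF_eq (mem_classF.1 hx)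
      have hsum := pair_sum hi humin (fun h => hne ((orbS M).iseqv.symm h) : ¬ (orbS M).r x₁ x₂)
      have h2e : 2 ^ (e + 1) = 2 ^ e + 2 ^ e := by rw [pow_succ]; ring
      have hcarry : ¬ 2 ^ (e + 1) ≤ (classF (orbS M) x₁).card + (classF (orbS M) x₂).card := by
        apply pair_carry hi h2 (fun h => hne ((orbS M).iseqv.symm h) : ¬ (orbS M).r x₁ x₂)
          (by omega) (by omega)
      rcases le_total (classF (orbS M) x₂).card (classF (orbS M) x₁).card with hle | hle
      · exact ⟨_, _, hall, hdisj, hself₁, hself₂, hle, hO₁, fun _ => hsum, by omega⟩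
      · refine ⟨_, _, fun x => ?_, hdisj.symm, hself₂, hself₁, hle, hO₂, fun _ => by omega, by omega⟩
        rw [or_comm]; exact hall x
    · push Not at h₁
      refine ⟨classF (orbS M) x₁, ∅, ?_, Finset.disjoint_empty_right _, ?_, by simp, by simp, hO₁, by simp, ?_⟩
      · intro x
        constructor
        · rintro (h | h)
          · rwa [big_iff_of_orbit (mem_classF.1 h)]
          · simp at h
        · intro hx
          exact Or.inl (mem_classF.2 (h₁ x hx))
      · exact fun x hx => classF_eq (mem_classF.1 hx)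
      · simp only [Finset.card_empty, add_zero]
        omega
  · push Not at h₀
    refine ⟨∅, ∅, ?_, Finset.disjoint_empty_right _, by simp, by simp, by simp, ?_, by simp, ?_⟩
    · intro x
      simp [h₀ x]
    · simp only [Finset.card_empty]
      exact hu.pos
    · simp only [Finset.card_empty, add_zero]
      positivity

open Classical in
include hπ hi h2 h3 hu huπ humin hb1 hb2 in
/-- The two blocks of the big orbit. -/
theorem exists_C0 : ∃ (C₀ : Finset α) (B : ℕ), (∀ x ∈ C₀, big M x) ∧ C₀.card = B ∧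
    (Finset.univ.filter (fun x => big M x ∧ x ∉ C₀)).card = B ∧ (B = 0 ∨ B = 2 ^ e) ∧
    (B = 0 → ∀ x, ¬ big M x) ∧
    (∀ g ∈ M, (∀ x, big M x → (g x ∈ C₀ ↔ x ∈ C₀)) ∨ (∀ x, big M x → (g x ∈ C₀ ↔ x ∉ C₀))) := by
  classical
  by_cases h : ∃ a₀, big M a₀
  · obtain ⟨a₀, ha₀⟩ := h
    have hc := big_card hπ hi h2 h3 hu huπ humin hb1 hb2 ha₀
    have hbigiff : ∀ x, big M x ↔ x ∈ classF (orbS M) a₀ := by
      intro x
      constructor
      · intro hx
        exact mem_classF.2 (one_big hπ hi h2 h3 hu huπ humin hb1 hb2 hx ha₀)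
      · intro hx
        rwa [big_iff_of_orbit (mem_classF.1 hx)]
    have hfilter : Finset.univ.filter (fun x => big M x ∧ x ∉ classF (eS M) a₀) =
        classF (orbS M) a₀ \ classF (eS M) a₀ := by
      ext x
      simp [hbigiff]
    have hcard2 : (classF (orbS M) a₀ \ classF (eS M) a₀).card = 2 ^ e := by
      rw [Finset.card_sdiff_of_subset (classF_eS_subset_orbit a₀), hc.1, hc.2, pow_succ]
      omega
    have htwo : ∀ y z, big M y → y ∉ classF (eS M) a₀ → big M z → z ∉ classF (eS M) a₀ →
        (eS M).r y z := by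
      intro y z hy hy' hz hz'
      have hsub : classF (eS M) y ⊆ classF (orbS M) a₀ \ classF (eS M) a₀ := by
        intro t ht
        have ht' := mem_classF.1 ht
        rw [Finset.mem_sdiff]
        constructor
        · have hsub := classF_eS_subset_orbit (M := M) y
          rw [classF_eq (s := orbS M) (mem_classF.1 ((hbigiff y).1 hy))] at hsub
          exact hsub ht
        · intro ht2
          exact hy' (mem_classF.2 ((eS M).iseqv.trans ((eS M).iseqv.symm ht') (mem_classF.1 ht2)))
      have hcy : (classF (eS M) y).card = 2 ^ e := (big_card hπ hi h2 h3 hu huπ humin hb1 hb2 hy).1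
      have heq : classF (eS M) y = classF (orbS M) a₀ \ classF (eS M) a₀ :=
        Finset.eq_of_subset_of_card_le hsub (by rw [hcy, hcard2])
      have hzm : z ∈ classF (eS M) y := by
        rw [heq, Finset.mem_sdiff]
        exact ⟨(hbigiff z).1 hz, hz'⟩
      exact (eS M).iseqv.symm (mem_classF.1 hzm)
    refine ⟨classF (eS M) a₀, 2 ^ e, ?_, hc.1, ?_, Or.inr rfl, ?_, ?_⟩
    · intro x hx
      exact (hbigiff x).2 (classF_eS_subset_orbit a₀ hx)
    · rw [hfilter, hcard2]
    · intro h0
      have : 0 < 2 ^ e := by positivity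
      omega
    · intro g hg
      have hgbig : ∀ x, big M x → big M (g x) := by
        intro x hx
        rwa [big_iff_of_orbit (⟨g, hg, rfl⟩ : (orbS M).r (g x) x)]
      by_cases hga : (eS M).r (g a₀) a₀
      · left
        intro x _
        rw [mem_classF, mem_classF]
        constructor
        · intro h1
          have h3 := (eS M).iseqv.trans h1 ((eS M).iseqv.symm hga)
          have h4 := eS_invariant (M.inv_mem hg) h3
          simpa using h4
        · intro h1
          exact (eS M).iseqv.trans (eS_invariant hg h1) hga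
      · right
        intro x hx
        rw [mem_classF, mem_classF]
        constructor
        · intro h1 h4
          exact hga ((eS M).iseqv.trans ((eS M).iseqv.symm (eS_invariant hg h4)) h1)
        · intro h1
          by_contra h4
          have h5 := htwo (g x) (g a₀) (hgbig x hx) (fun h => h4 (mem_classF.1 h)) (hgbig a₀ ha₀)
            (fun h => hga (mem_classF.1 h))
          have h6 := eS_invariant (M.inv_mem hg) h5
          rw [show g⁻¹ (g x) = x by simp, show g⁻¹ (g a₀) = a₀ by simp] at h6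
          exact h1 h6
  · push Not at h
    have hh : ∀ x, ¬ big M x := h
    refine ⟨∅, 0, by simp, by simp, ?_, Or.inl rfl, fun _ => hh, fun g _ => Or.inl (fun x hx => absurd hx (hh x))⟩
    rw [Finset.card_eq_zero, Finset.filter_eq_empty_iff]
    intro x _ hx
    exact hh x hx.1

end Main

end Cfsg.Agent.Lib.HallSym.Struct
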