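import Cfsg.Agent.Lib.HallSym.Odd

/-!
# A Hall subgroup of an alternating group of even order with an odd prime has order divisible by 3
-/

set_option autoImplicit false
set_option linter.unusedSectionVars false

open Equiv Equiv.Perm MulAction
open Cfsg.Agent.Lib.HallSym.Basic Cfsg.Agent.Lib.HallSym.Class Cfsg.Agent.Lib.HallSym.JordanLite
open Cfsg.Agent.Lib.HallSym.Odd

namespace Cfsg.Agent.Lib.HallSym.Three

/-- A counting lemma: a "tournament" covered by out-degree `≤ 2` relations has at most 5 vertices. -/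
theorem card_le_five_of_tournament {β : Type*} [DecidableEq β] (S : Finset β) (A : β → Finset β)
    (hA : ∀ y ∈ S, (A y).card ≤ 2) (h : ∀ y ∈ S, ∀ w ∈ S, y ≠ w → w ∈ A y ∨ y ∈ A w) : S.card ≤ 5 := by
  classical
  set E : Finset (β × β) := S.biUnion (fun y => (A y).image (fun w => (y, w))) with hE
  have hEcard : E.card ≤ 2 * S.card := by
    calc E.card ≤ ∑ y ∈ S, ((A y).image (fun w => (y, w))).card := Finset.card_biUnion_le
      _ ≤ ∑ y ∈ S, 2 := Finset.sum_le_sum (fun y hy => Finset.card_image_le.trans (hA y hy))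
      _ = 2 * S.card := by rw [Finset.sum_const, smul_eq_mul, mul_comm]
  have hsub : S.offDiag ⊆ E ∪ E.image Prod.swap := by
    rintro ⟨y, w⟩ hyw
    rw [Finset.mem_offDiag] at hyw
    obtain ⟨hy, hw, hne⟩ := hyw
    rcases h y hy w hw hne with h1 | h1
    · refine Finset.mem_union_left _ ?_
      exact Finset.mem_biUnion.2 ⟨y, hy, Finset.mem_image.2 ⟨w, h1, rfl⟩⟩
    · refine Finset.mem_union_right _ ?_
      refine Finset.mem_image.2 ⟨(w, y), ?_, rfl⟩
      exact Finset.mem_biUnion.2 ⟨w, hw, Finset.mem_image.2 ⟨y, h1, rfl⟩⟩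
  have h1 := Finset.card_le_card hsub
  have h2 : (E ∪ E.image Prod.swap).card ≤ E.card + E.card :=
    (Finset.card_union_le _ _).trans (by
      have := Finset.card_image_le (s := E) (f := Prod.swap)
      omega)
  rw [Finset.offDiag_card] at h1
  by_contra hcon
  push Not at hcon
  have h6 : 6 * S.card ≤ S.card * S.card := Nat.mul_le_mul_right _ (by omega)
  omega

/-- The Klein four-group on `Fin 4`. -/
def kl1 : Perm (Fin 4) := swap 0 1 * swap 2 3
def kl2 : Perm (Fin 4) := swap 0 2 * swap 1 3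
def kl3 : Perm (Fin 4) := swap 0 3 * swap 1 2

def K4 : Subgroup (Perm (Fin 4)) where
  carrier := {g | g ∈ ({1, kl1, kl2, kl3} : Finset (Perm (Fin 4)))}
  mul_mem' := by
    intro a b ha hb
    have : ∀ a ∈ ({1, kl1, kl2, kl3} : Finset (Perm (Fin 4))),
        ∀ b ∈ ({1, kl1, kl2, kl3} : Finset (Perm (Fin 4))),
        a * b ∈ ({1, kl1, kl2, kl3} : Finset (Perm (Fin 4))) := by decide
    exact this a ha b hb
  one_mem' := by
    show (1 : Perm (Fin 4)) ∈ ({1, kl1, kl2, kl3} : Finset (Perm (Fin 4)))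
    decide
  inv_mem' := by
    intro a ha
    have : ∀ a ∈ ({1, kl1, kl2, kl3} : Finset (Perm (Fin 4))),
        a⁻¹ ∈ ({1, kl1, kl2, kl3} : Finset (Perm (Fin 4))) := by decide
    exact this a ha

theorem K4_sq : ∀ g ∈ K4, g ^ 2 = 1 := by
  have : ∀ a ∈ ({1, kl1, kl2, kl3} : Finset (Perm (Fin 4))), a ^ 2 = 1 := by decide
  exact fun g hg => this g hg

theorem K4_sign : ∀ g ∈ K4, Perm.sign g = 1 := by
  have : ∀ a ∈ ({1, kl1, kl2, kl3} : Finset (Perm (Fin 4))), Perm.sign a = 1 := by decide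
  exact fun g hg => this g hg

theorem K4_trans : ∀ i j : Fin 4, ∃ g ∈ K4, g i = j := by
  have : ∀ i j : Fin 4, ∃ a ∈ ({1, kl1, kl2, kl3} : Finset (Perm (Fin 4))), a i = j := by decide
  exact this

variable {α : Type*} [Fintype α] [DecidableEq α]

/-- The combinatorial core: a prime cycle of length `≥ 5` and a Klein group overlapping it yield an element of
order divisible by 3. -/
theorem three_dvd_of_klein {M : Subgroup (Perm α)} {c : Perm α} {F : Subgroup (Perm α)} {J : Finset α}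
    (hcM : c ∈ M) (hFM : F ≤ M) (hc : c.IsCycle) (hq : c.support.card.Prime) (hq5 : 5 ≤ c.support.card)
    (hJ4 : J.card = 4) (hF2 : ∀ f ∈ F, f ^ 2 = 1) (hFJ : ∀ f ∈ F, ∀ x, x ∉ J → f x = x)
    (hFtr : ∀ a ∈ J, ∀ b ∈ J, ∃ f ∈ F, f a = b) (hover : ∃ w ∈ J, w ∈ c.support) :
    3 ∣ Nat.card M := by
  classical
  by_contra hnd
  obtain ⟨p₀, hp₀, hp₀J⟩ := Finset.exists_mem_notMem_of_card_lt_card (s := J) (t := c.support) (by omega)
  have hFp : ∀ f ∈ F, f p₀ = p₀ := fun f hf => hFJ f hf p₀ hp₀J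
  set T : Finset α := c.support ∪ J with hT
  have hgenM : gen c F ≤ M := by
    rw [gen, Subgroup.closure_le]
    rintro u hu
    rcases Set.mem_insert_iff.1 hu with rfl | hu
    · exact hcM
    · exact hFM hu
  have htwo : ∀ {a a' b b' : α}, a ∈ T → a' ∈ T → b ∈ T → b' ∈ T → a ≠ a' → b ≠ b' →
      ∃ g ∈ gen c F, g a = b ∧ g a' = b' := by
    intro a a' b b' ha ha' hb hb' haa' hbb'
    exact two_trans c F J hc hq hp₀ hFp (by omega) hFJ hFtr hover ha ha' hb hb' haa' hbb'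
  have hpres := gen_preserves c F J hFJ
  have hJT : ∀ x ∈ J, x ∈ T := fun x hx => Finset.mem_union_right _ hx
  have hp₀T : p₀ ∈ T := Finset.mem_union_left _ hp₀
  have hTcard : 5 ≤ T.card := hq5.trans (Finset.card_le_card Finset.subset_union_left)
  obtain ⟨a₀, ha₀, b₀, hb₀, hab⟩ := Finset.one_lt_card.1 (by omega : 1 < J.card)
  obtain ⟨z₀, hz₀, hz₀a⟩ := hFtr a₀ ha₀ b₀ hb₀
  have hinv : ∀ f ∈ F, ∀ u v, f u = v → f v = u := by
    intro f hf u v huv
    have : (f ^ 2) u = u := by rw [hF2 f hf]; rfl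
    rw [pow_two, Perm.mul_apply, huv] at this
    exact this
  have hzM : z₀ ∈ M := hFM hz₀
  have hthree : ∀ s ∈ M, ∀ {u v w : α}, u ≠ v → s u = v → s v = w → s w = u → False := by
    intro s hs u v w huv h1 h2 h3
    exact hnd ((three_dvd_orderOf huv h1 h2 h3).trans (orderOf_dvd_card_of_mem hs))
  have ha₀p₀ : a₀ ≠ p₀ := fun h => hp₀J (h ▸ ha₀)
  have hb₀p₀ : b₀ ≠ p₀ := fun h => hp₀J (h ▸ hb₀)
  rcases lt_trichotomy T.card 6 with h6 | h6 | h6
  · -- `|T| = 5`
    have hT5 : T.card = 5 := by omega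
    obtain ⟨g, hg, hg1, -⟩ := htwo hp₀T (hJT a₀ ha₀) (hJT a₀ ha₀) (hJT b₀ hb₀) ha₀p₀.symm hab
    have hgM : g ∈ M := hgenM hg
    have hsub : J.image g ⊆ T.erase a₀ := by
      intro x hx
      obtain ⟨u, hu, rfl⟩ := Finset.mem_image.1 hx
      refine Finset.mem_erase.2 ⟨?_, (hpres g hg u).2 (hJT u hu)⟩
      intro h
      rw [← hg1] at h
      exact hp₀J (g.injective h ▸ hu)
    have hcardi : (J.image g).card = 4 := by
      rw [Finset.card_image_of_injective _ g.injective, hJ4]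
    have heq : J.image g = T.erase a₀ := by
      apply Finset.eq_of_subset_of_card_le hsub
      rw [Finset.card_erase_of_mem (hJT a₀ ha₀), hcardi, hT5]
    have hp₀i : p₀ ∈ J.image g := by
      rw [heq]; exact Finset.mem_erase.2 ⟨ha₀p₀.symm, hp₀T⟩
    have hb₀i : b₀ ∈ J.image g := by
      rw [heq]; exact Finset.mem_erase.2 ⟨hab.symm, hJT b₀ hb₀⟩
    obtain ⟨u, hu, hgu⟩ := Finset.mem_image.1 hp₀i
    obtain ⟨v, hv, hgv⟩ := Finset.mem_image.1 hb₀i
    obtain ⟨t₀, ht₀, ht₀u⟩ := hFtr u hu v hv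
    have ht₀v : t₀ v = u := hinv t₀ ht₀ u v ht₀u
    have hginv1 : g⁻¹ p₀ = u := by rw [← hgu]; simp
    have hginv2 : g⁻¹ b₀ = v := by rw [← hgv]; simp
    have hginv3 : g⁻¹ a₀ = p₀ := by rw [← hg1]; simp
    have hs1 : (g * t₀ * g⁻¹) p₀ = b₀ := by
      simp only [Perm.mul_apply, hginv1, ht₀u, hgv]
    have hs2 : (g * t₀ * g⁻¹) b₀ = p₀ := by
      simp only [Perm.mul_apply, hginv2, ht₀v, hgu]
    have hs3 : (g * t₀ * g⁻¹) a₀ = a₀ := by
      simp only [Perm.mul_apply, hginv3, hFp t₀ ht₀, hg1]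
    have hz₀b : z₀ b₀ = a₀ := hinv z₀ hz₀ a₀ b₀ hz₀a
    refine hthree (z₀ * (g * t₀ * g⁻¹)) (M.mul_mem hzM (M.mul_mem (M.mul_mem hgM (hFM ht₀)) (M.inv_mem hgM)))
      (u := p₀) (v := a₀) (w := b₀) ha₀p₀.symm ?_ ?_ ?_
    · rw [Perm.mul_apply, hs1, hz₀b]
    · rw [Perm.mul_apply, hs3, hz₀a]
    · rw [Perm.mul_apply, hs2, hFp z₀ hz₀]
  · -- `|T| = 6`
    have horb : MulAction.orbit (gen c F) p₀ = (T : Set α) := by
      ext t
      constructor
      · rintro ⟨g, rfl⟩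
        exact (hpres g.1 g.2 p₀).2 hp₀T
      · intro ht
        by_cases htp : t = p₀
        · rw [htp]; exact MulAction.mem_orbit_self p₀
        · obtain ⟨t', ht', htt'⟩ := Finset.exists_mem_ne (by omega : 1 < T.card) t
          obtain ⟨g, hg, hg1, -⟩ := htwo hp₀T (hJT a₀ ha₀) ht ht' ha₀p₀.symm htt'.symm
          exact ⟨⟨g, hg⟩, hg1⟩
    have hidx := MulAction.index_stabilizer (gen c F) p₀
    rw [horb, Set.ncard_coe_finset, h6] at hidx
    have h3 : 3 ∣ Nat.card (gen c F) := by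
      have h1 := Subgroup.index_dvd_card (MulAction.stabilizer (gen c F) p₀)
      rw [hidx] at h1
      exact (by norm_num : 3 ∣ 6).trans h1
    exact hnd (h3.trans (Subgroup.card_dvd_of_le hgenM))
  · -- `|T| ≥ 7`
    have hS : 6 ≤ (T.erase p₀).card := by
      rw [Finset.card_erase_of_mem hp₀T]; omega
    have hg : ∀ y, y ∈ T.erase p₀ → ∃ g ∈ gen c F, g a₀ = p₀ ∧ g b₀ = y := by
      intro y hy
      obtain ⟨hy1, hy2⟩ := Finset.mem_erase.1 hy
      exact htwo (hJT a₀ ha₀) (hJT b₀ hb₀) hp₀T hy2 hab hy1.symm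
    choose! G hG hG1 hG2 using hg
    have hle := card_le_five_of_tournament (T.erase p₀)
      (fun y => ((J.image (G y)).erase p₀).erase y) ?_ ?_
    · omega
    · intro y hy
      have hy1 := (Finset.mem_erase.1 hy).1
      have hcardi : (J.image (G y)).card = 4 := by
        rw [Finset.card_image_of_injective _ (G y).injective, hJ4]
      have hp : p₀ ∈ J.image (G y) := Finset.mem_image.2 ⟨a₀, ha₀, hG1 y hy⟩
      have hyi : y ∈ (J.image (G y)).erase p₀ :=
        Finset.mem_erase.2 ⟨hy1, Finset.mem_image.2 ⟨b₀, hb₀, hG2 y hy⟩⟩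
      rw [Finset.card_erase_of_mem hyi, Finset.card_erase_of_mem hp, hcardi]
    · intro y hy w hw hyw
      by_contra hcon
      push Not at hcon
      obtain ⟨h1, h2⟩ := hcon
      have hy1 := (Finset.mem_erase.1 hy).1
      have hw1 := (Finset.mem_erase.1 hw).1
      have hwn : w ∉ J.image (G y) := fun h =>
        h1 (Finset.mem_erase.2 ⟨hyw.symm, Finset.mem_erase.2 ⟨hw1, h⟩⟩)
      have hyn : y ∉ J.image (G w) := fun h =>
        h2 (Finset.mem_erase.2 ⟨hyw, Finset.mem_erase.2 ⟨hy1, h⟩⟩)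
      have hz₀b : z₀ b₀ = a₀ := hinv z₀ hz₀ a₀ b₀ hz₀a
      -- the conjugates
      have key : ∀ r, r ∈ T.erase p₀ →
          (G r * z₀ * (G r)⁻¹) p₀ = r ∧ (G r * z₀ * (G r)⁻¹) r = p₀ ∧
          ∀ t, t ∉ J.image (G r) → (G r * z₀ * (G r)⁻¹) t = t := by
        intro r hr
        have h1 : (G r)⁻¹ p₀ = a₀ := by rw [← hG1 r hr]; simp
        have h2 : (G r)⁻¹ r = b₀ := by
          rw [Perm.inv_eq_iff_eq]; exact (hG2 r hr).symm
        refine ⟨?_, ?_, ?_⟩
        · simp only [Perm.mul_apply, h1, hz₀a, hG2 r hr]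
        · simp only [Perm.mul_apply, h2, hz₀b, hG1 r hr]
        · intro t ht
          have h3 : (G r)⁻¹ t ∉ J := by
            intro h
            exact ht (Finset.mem_image.2 ⟨_, h, by simp⟩)
          simp only [Perm.mul_apply, hFJ z₀ hz₀ _ h3]
          simp
      obtain ⟨ky1, ky2, ky3⟩ := key y hy
      obtain ⟨kw1, kw2, kw3⟩ := key w hw
      have hGy : G y ∈ M := hgenM (hG y hy)
      have hGw : G w ∈ M := hgenM (hG w hw)
      refine hthree ((G y * z₀ * (G y)⁻¹) * (G w * z₀ * (G w)⁻¹))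
        (M.mul_mem (M.mul_mem (M.mul_mem hGy hzM) (M.inv_mem hGy))
          (M.mul_mem (M.mul_mem hGw hzM) (M.inv_mem hGw)))
        (u := w) (v := y) (w := p₀) (Ne.symm hyw) ?_ ?_ ?_
      · rw [Perm.mul_apply, kw2, ky1]
      · rw [Perm.mul_apply, kw3 y hyn, ky2]
      · rw [Perm.mul_apply, kw1, ky3 w hwn]

/-- The Hall-theoretic form. -/
theorem three_mem {π : Set ℕ} {M : Subgroup (Perm α)} (hMA : M ≤ alternatingGroup α)
    (hπ : ∀ p : ℕ, p.Prime → p ∣ Nat.card M → p ∈ π)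
    (hi : ∀ p : ℕ, p.Prime → p ∈ π → ¬ p ∣ M.relIndex (alternatingGroup α))
    (h2 : 2 ∈ π) {q : ℕ} (hq : q.Prime) (h5 : 5 ≤ q) (hqπ : q ∈ π) (hqn : q ≤ Fintype.card α) : 3 ∈ π := by
  classical
  set A := alternatingGroup α with hA
  -- a `q`-cycle in `M`
  obtain ⟨z, hz, hzk, -⟩ := exists_cycle_support (Finset.univ : Finset α) hq.two_le (by simpa using hqn)
  have hzA : z ∈ A := by
    rw [hA, Equiv.Perm.mem_alternatingGroup, hz.sign, hzk]
    have hodd : Odd q := hq.odd_of_ne_two (by omega)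
    simp [hodd.neg_one_pow]
  have hqF : Fact q.Prime := ⟨hq⟩
  have h2F : Fact (Nat.Prime 2) := ⟨Nat.prime_two⟩
  have hpow : z ^ q ^ 1 = 1 := by
    rw [pow_one, ← hzk]; exact IsCycle_pow_card hz
  obtain ⟨w₀, -, hw₀⟩ := exists_conj_mem_of_pow_eq_one hzA hpow (hi q hq hqπ)
  set x : Perm α := w₀⁻¹ * z * w₀ with hxdef
  have hxc : x.IsCycle := by
    have := hz.conj (g := w₀⁻¹)
    simpa using this
  have hxk : x.support.card = q := by
    have : x = w₀⁻¹ * z * (w₀⁻¹)⁻¹ := by simp [hxdef]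
    rw [this, Perm.support_conj]
    simpa using hzk
  obtain ⟨a, ha⟩ : x.support.Nonempty := by
    rw [← Finset.card_pos, hxk]; exact hq.pos
  have hO : x.support ⊆ classF (orbS M) a := cycle_support_subset_orbit hw₀ hxc ha
  have hOcard : 4 ≤ (classF (orbS M) a).card := by
    have := Finset.card_le_card hO
    omega
  obtain ⟨Δ, hΔO, hΔ4⟩ := Finset.exists_subset_card_eq hOcard
  -- the Klein group on `Δ`
  let e : Fin 4 ≃ Δ := (Finset.equivFinOfCardEq hΔ4).symm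
  let ι : Fin 4 ↪ α := e.toEmbedding.trans (Function.Embedding.subtype _)
  have hιΔ : ∀ i, ι i ∈ Δ := fun i => (e i).2
  have hιsurj : ∀ y ∈ Δ, ∃ i, ι i = y := by
    intro y hy
    exact ⟨e.symm ⟨y, hy⟩, by simp [ι]⟩
  let ψ := Perm.viaEmbeddingHom ι
  let X : Subgroup (Perm α) := K4.map ψ
  have hψap : ∀ g i, ψ g (ι i) = ι (g i) := fun g i => Perm.viaEmbedding_apply g ι i
  have hψoff : ∀ g y, y ∉ Δ → ψ g y = y := by
    intro g y hy
    apply Perm.viaEmbedding_apply_of_notMem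
    rintro ⟨i, rfl⟩
    exact hy (hιΔ i)
  have hψsign : ∀ g, Perm.sign (ψ g) = Perm.sign g := by
    intro g
    show Perm.sign (Perm.viaEmbedding g ι) = Perm.sign g
    unfold Perm.viaEmbedding
    convert Perm.sign_extendDomain g (Equiv.ofInjective ι.1 ι.2)
  have hXW : X ≤ classPres (orbS M) ⊓ A := by
    rintro _ ⟨g, hg, rfl⟩
    refine ⟨?_, ?_⟩
    · refine mem_classPres_of_support_subset (a := a) ?_
      intro y hy
      have hyΔ : y ∈ Δ := by
        by_contra h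
        have : ψ g y = y := hψoff g y h
        exact (Perm.mem_support.1 hy) this
      exact hΔO hyΔ
    · change ψ g ∈ alternatingGroup α
      rw [Equiv.Perm.mem_alternatingGroup, hψsign, K4_sign g hg]
  have hXp : IsPGroup 2 X := by
    rintro ⟨_, g, hg, rfl⟩
    refine ⟨1, ?_⟩
    apply Subtype.ext
    simp only [pow_one, Subgroup.coe_pow, Subgroup.coe_one]
    rw [← map_pow, K4_sq g hg, map_one]
  have hMW : M ≤ classPres (orbS M) ⊓ A := le_inf (le_classPres_orbS M) hMA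
  have hi2 : ¬ 2 ∣ M.relIndex (classPres (orbS M) ⊓ A) := by
    intro h
    apply hi 2 Nat.prime_two h2
    refine h.trans ⟨(classPres (orbS M) ⊓ A).relIndex A, ?_⟩
    exact (Subgroup.relIndex_mul_relIndex _ _ _ hMW inf_le_right).symm
  obtain ⟨w, hwW, hw⟩ := exists_conj_le_of_isPGroup hXW hXp hi2
  -- move `X` so that it overlaps the cycle
  have hb₀O : ι 0 ∈ classF (orbS M) a := hΔO (hιΔ 0)
  have hwinv := (classPres (orbS M)).inv_mem hwW.1
  have hc₀ : (orbS M).r (w⁻¹ (ι 0)) a := (orbS M).iseqv.trans (hwinv (ι 0)) (mem_classF.1 hb₀O)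
  obtain ⟨m, hm, hma⟩ := (orbS M).iseqv.symm hc₀
  set u : Perm α := m * w⁻¹ with hu
  let F : Subgroup (Perm α) := X.map (MulAut.conj u).toMonoidHom
  have hFmem : ∀ f ∈ F, ∃ g ∈ K4, f = u * ψ g * u⁻¹ := by
    rintro _ ⟨_, ⟨g, hg, rfl⟩, rfl⟩
    exact ⟨g, hg, rfl⟩
  have hFmem' : ∀ g ∈ K4, u * ψ g * u⁻¹ ∈ F := by
    intro g hg
    exact ⟨ψ g, ⟨g, hg, rfl⟩, rfl⟩
  have hFM : F ≤ M := by
    intro f hf
    obtain ⟨g, hg, rfl⟩ := hFmem f hf
    have h1 := hw (ψ g) ⟨g, hg, rfl⟩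
    have : u * ψ g * u⁻¹ = m * (w⁻¹ * ψ g * w) * m⁻¹ := by
      rw [hu]; group
    rw [this]
    exact M.mul_mem (M.mul_mem hm h1) (M.inv_mem hm)
  set J : Finset α := Δ.image u with hJ
  have hJ4 : J.card = 4 := by
    rw [hJ, Finset.card_image_of_injective _ u.injective, hΔ4]
  have hua : u (ι 0) = a := by
    rw [hu, Perm.mul_apply]; exact hma
  have h3 := three_dvd_of_klein (M := M) (c := x) (F := F) (J := J) hw₀ hFM hxc (by rw [hxk]; exact hq)
    (by rw [hxk]; exact h5) hJ4 ?_ ?_ ?_ ⟨a, Finset.mem_image.2 ⟨_, hιΔ 0, hua⟩, ha⟩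
  · exact hπ 3 Nat.prime_three h3
  · intro f hf
    obtain ⟨g, hg, rfl⟩ := hFmem f hf
    have : (u * ψ g * u⁻¹) ^ 2 = u * ψ (g ^ 2) * u⁻¹ := by
      rw [map_pow, pow_two, pow_two]; simp [mul_assoc]
    rw [this, K4_sq g hg, map_one]
    group
  · intro f hf y hy
    obtain ⟨g, hg, rfl⟩ := hFmem f hf
    have h1 : u⁻¹ y ∉ Δ := by
      intro h
      exact hy (Finset.mem_image.2 ⟨_, h, by simp⟩)
    simp only [Perm.mul_apply, hψoff g _ h1]
    simp
  · intro c₁ hc₁ d hd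
    obtain ⟨c', hc', rfl⟩ := Finset.mem_image.1 hc₁
    obtain ⟨d', hd', rfl⟩ := Finset.mem_image.1 hd
    obtain ⟨i, rfl⟩ := hιsurj c' hc'
    obtain ⟨j, rfl⟩ := hιsurj d' hd'
    obtain ⟨g, hg, hgij⟩ := K4_trans i j
    refine ⟨_, hFmem' g hg, ?_⟩
    simp only [Perm.mul_apply]
    rw [show u⁻¹ (u (ι i)) = ι i by simp, hψap, hgij]

end Cfsg.Agent.Lib.HallSym.Three
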